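import Mathlib
import Cfsg.Agent.H958.Glue

/-!
# The criterion for odd prime order in even dimension, matrix form
-/

set_option autoImplicit false

namespace Cfsg.Agent.H958

open Module QuadraticMap Cfsg.Agent.LieClassical.OrthCore Cfsg.Agent.LieClassical.OrthTrans
  Cfsg.Agent.LieClassical.OrthFinite Cfsg.Agent.H955
open scoped MatrixGroups Matrix

variable {F : Type*} [Field F] [Fintype F] {ι : Type} [Fintype ι] [DecidableEq ι]
  {Q : QuadraticForm F (ι → F)} {r : ℕ} [Fact r.Prime]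

/-- even `m` -/
theorem even_main (hG : Good Q) (hr2 : 2 < r) (hr : (r : F) ≠ 0) {n m' : ℕ}
    (hn : finrank F (ι → F) = n) (hne : Even n) (hm : 0 < m') (hmn : 2 * m' < n) (δ : Prop)
    (hdvd : r ∣ Nat.card {W : Submodule F (ι → F) // finrank F W = 2 * m' ∧ Nondeg (res Q W) ∧
      (IsPlus (res Q W) ↔ δ)}) {c : ℕ} (hc : bk F r = c) :
    ((∀ x : GL ι F, x ∈ Cfsg.Geo.omegaGL ⇑Q →
      (∃ z : F, ((x ^ r : GL ι F) : Matrix ι ι F) = z • (1 : Matrix ι ι F)) →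
      (∀ z : F, (x : Matrix ι ι F) ≠ z • (1 : Matrix ι ι F)) →
      ∃ W : Submodule F (ι → F), (finrank F W = 2 * m' ∧ Nondeg (res Q W) ∧
      (IsPlus (res Q W) ↔ δ)) ∧ W.map (Matrix.toLin' (x : Matrix ι ι F)) ≤ W) ↔
      Crit c n (2 * m') (IsPlus Q ↔ dl F r (n / c)) (δ ↔ dl F r (2 * m' / c))
        ((IsPlus Q ↔ δ) ↔ dl F r ((n - 2 * m') / c))) ∧
    (Crit c n (2 * m') (IsPlus Q ↔ dl F r (n / c)) (δ ↔ dl F r (2 * m' / c))
        ((IsPlus Q ↔ δ) ↔ dl F r ((n - 2 * m') / c)) → c ≤ 2 * m' ∧ c ≤ n - 2 * m') := by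
  have hQ := hG.nondeg
  obtain ⟨W, hWn, hWd, hWp⟩ := exists_subspace hQ (by rw [hn]; exact hne) m' hm (by rw [hn]; exact hmn) δ
  have hWe : Even (finrank F W) := by rw [hWd]; exact even_two_mul _
  have hC : ∀ W' : Submodule F (ι → F), (finrank F W' = 2 * m' ∧ Nondeg (res Q W') ∧
      (IsPlus (res Q W') ↔ δ)) ↔ ∃ g ∈ O Q, W.map (g : (ι → F) →ₗ[F] (ι → F)) = W' := by
    intro W'
    rw [← class_even hQ hWn hWe, hWd, hWp]
  obtain ⟨h1, h2⟩ := main hr2 hr hQ hWn (by omega) (by omega)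
    (Or.inl ⟨by rw [hn]; exact hne, hWe⟩) _ hC hdvd
  have hd := finrank_add_perp hQ W
  have hPd : finrank F (perp Q W) = n - 2 * m' := by omega
  have htop : IsPlus (res Q (⊤ : Submodule F (ι → F))) ↔ IsPlus Q :=
    isPlus_iff_of_equiv (LinearEquiv.ofTop ⊤ rfl) (fun _ => rfl)
  have hPp : IsPlus (res Q (perp Q W)) ↔ (IsPlus Q ↔ δ) := by
    have := isPlus_iff_perp hQ hWn (by rw [hn]; exact hne) hWe
    rw [hWp] at this
    rw [this]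
    tauto
  have e1 : AA Q r ⊤ ↔ (IsPlus Q ↔ dl F r (n / c)) := by rw [AA, finrank_top, hn, hc, htop]
  have e2 : AA Q r W ↔ (δ ↔ dl F r (2 * m' / c)) := by rw [AA, hWd, hc, hWp]
  have e3 : AA Q r (perp Q W) ↔ ((IsPlus Q ↔ δ) ↔ dl F r ((n - 2 * m') / c)) := by
    rw [AA, hPd, hc, hPp]
  rw [hn, hWd, hc, propext e1, propext e2, propext e3] at h1 h2
  exact ⟨(transfer_odd hG ((Fact.out : r.Prime).odd_of_ne_two (by omega)) _).trans h1, h2⟩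

/-- odd `m` -/
theorem odd_main (hG : Good Q) (h2 : (2 : F) ≠ 0) (hr2 : 2 < r) (hr : (r : F) ≠ 0) {n m : ℕ}
    (hn : finrank F (ι → F) = n) (hne : Even n) (hm : Odd m) (hmn : m < n)
    {W₀ : Submodule F (ι → F)} (hW₀ : Nondeg (res Q W₀)) (hW₀d : finrank F W₀ = m)
    (hdvd : r ∣ Nat.card {W : Submodule F (ι → F) // finrank F W = m ∧ Nondeg (res Q W) ∧
      Cfsg.Geo.AreIsometricFor ⇑Q W W₀}) {c : ℕ} (hc : bk F r = c) :
    ((∀ x : GL ι F, x ∈ Cfsg.Geo.omegaGL ⇑Q →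
      (∃ z : F, ((x ^ r : GL ι F) : Matrix ι ι F) = z • (1 : Matrix ι ι F)) →
      (∀ z : F, (x : Matrix ι ι F) ≠ z • (1 : Matrix ι ι F)) →
      ∃ W : Submodule F (ι → F), (finrank F W = m ∧ Nondeg (res Q W) ∧
      Cfsg.Geo.AreIsometricFor ⇑Q W W₀) ∧ W.map (Matrix.toLin' (x : Matrix ι ι F)) ≤ W) ↔
      ((n % c = 0 ∧ ¬ (IsPlus Q ↔ dl F r (n / c))) ∨ (0 < m % c ∧ m % c < n % c))) ∧
    (((n % c = 0 ∧ ¬ (IsPlus Q ↔ dl F r (n / c))) ∨ (0 < m % c ∧ m % c < n % c)) →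
      c ≤ m ∧ c ≤ n - m) := by
  have hQ := hG.nondeg
  have hC : ∀ W' : Submodule F (ι → F), (finrank F W' = m ∧ Nondeg (res Q W') ∧
      Cfsg.Geo.AreIsometricFor ⇑Q W' W₀) ↔
        ∃ g ∈ O Q, W₀.map (g : (ι → F) →ₗ[F] (ι → F)) = W' := by
    intro W'
    rw [← class_isom hQ hW₀, hW₀d]
  obtain ⟨h1, h3⟩ := main hr2 hr hQ hW₀ (by rw [hW₀d]; exact hm.pos) (by omega) (Or.inr h2) _ hC hdvd
  have htop : IsPlus (res Q (⊤ : Submodule F (ι → F))) ↔ IsPlus Q :=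
    isPlus_iff_of_equiv (LinearEquiv.ofTop ⊤ rfl) (fun _ => rfl)
  have e1 : AA Q r ⊤ ↔ (IsPlus Q ↔ dl F r (n / c)) := by rw [AA, finrank_top, hn, hc, htop]
  rw [hn, hW₀d, hc, propext e1] at h1 h3
  have hce : Even c := by rw [← hc]; exact bk_even F r
  have hc0 : 0 < c := by rw [← hc]; exact bk_pos hr
  obtain ⟨c', hc'⟩ := hce
  obtain ⟨n', hn'⟩ := hne
  obtain ⟨m', hm'⟩ := hm
  have hn1 : n % c % 2 = 0 := by
    rw [Nat.mod_mod_of_dvd _ (by rw [hc']; exact ⟨c', by ring⟩)]; omega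
  have hm3 : m % c % 2 = 1 := by
    rw [Nat.mod_mod_of_dvd _ (by rw [hc']; exact ⟨c', by ring⟩)]; omega
  have key : Crit c n m (IsPlus Q ↔ dl F r (n / c)) (AA Q r W₀) (AA Q r (perp Q W₀)) ↔
      ((n % c = 0 ∧ ¬ (IsPlus Q ↔ dl F r (n / c))) ∨ (0 < m % c ∧ m % c < n % c)) := by
    unfold Crit
    constructor
    · rintro (⟨h, h', -⟩ | ⟨h, -, h'⟩ | ⟨h, h', -⟩ | ⟨h, h'⟩ | ⟨h, h', -⟩)
      · omega
      · exact Or.inl ⟨h, h'⟩
      · omega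
      · exact Or.inr ⟨h, h'⟩
      · omega
    · rintro (⟨h, h'⟩ | ⟨h, h'⟩)
      · exact Or.inr (Or.inl ⟨h, by omega, h'⟩)
      · exact Or.inr (Or.inr (Or.inr (Or.inl ⟨h, h'⟩)))
  rw [key] at h1 h3
  exact ⟨(transfer_odd hG ((Fact.out : r.Prime).odd_of_ne_two (by omega)) _).trans h1, h3⟩

end Cfsg.Agent.H958
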