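import Mathlib
import Cfsg.Agent.H958.FourCycle

/-!
# Isometries with square `-1`: structure and existence
-/

set_option autoImplicit false

namespace Cfsg.Agent.H958

open Module QuadraticMap Cfsg.Agent.LieClassical.OrthCore Cfsg.Agent.LieClassical.OrthTrans
  Cfsg.Agent.H955

universe u v
variable {F : Type u} [Field F]

section Inv

variable {V : Type v} [AddCommGroup V] [Module F V] {Q : QuadraticForm F V}

/-- an invariant subspace of an invariant subspace -/
theorem inv_map_subtype {T : V ≃ₗ[F] V} {U : Submodule F V} (hU : ∀ v ∈ U, T v ∈ U)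
    [FiniteDimensional F V] {W : Submodule F U} (hW : ∀ w ∈ W, resT T U hU w ∈ W) :
    ∀ w ∈ W.map U.subtype, T w ∈ W.map U.subtype := by
  rintro _ ⟨w, hw, rfl⟩
  exact ⟨_, hW w hw, rfl⟩

theorem inv_sup {T : V ≃ₗ[F] V} {A B : Submodule F V} (hA : ∀ v ∈ A, T v ∈ A) (hB : ∀ v ∈ B, T v ∈ B) :
    ∀ v ∈ A ⊔ B, T v ∈ A ⊔ B := by
  intro v hv
  obtain ⟨a, ha, b, hb, rfl⟩ := Submodule.mem_sup.1 hv
  rw [map_add]
  exact Submodule.add_mem_sup (hA a ha) (hB b hb)

theorem map_subtype_le_perp {U : Submodule F V} (W : Submodule F (perp Q U)) :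
    W.map (perp Q U).subtype ≤ perp Q U := Submodule.map_subtype_le _ _

/-- the plane `⟨v, T v⟩` -/
theorem plane_props [FiniteDimensional F V] (h2 : (2 : F) ≠ 0) {T : V ≃ₗ[F] V} (hT : T ∈ O Q)
    (hTT : ∀ v, T (T v) = -v) {v : V} (hv : Q v ≠ 0) :
    ∃ P : Submodule F V, (∀ w ∈ P, T w ∈ P) ∧ Nondeg (res Q P) ∧ finrank F P = 2 ∧
      (IsPlus (res Q P) ↔ IsSquare (-1 : F)) := by
  have hpol : polar Q v (T v) = 0 := by
    have h1 := polar_map hT v (T v)
    rw [hTT, polar_neg_right, polar_comm] at h1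
    have h3 : (2 : F) * polar Q v (T v) = 0 := by
      rw [two_mul]
      nth_rewrite 1 [← h1]
      exact neg_add_cancel _
    exact (mul_eq_zero.1 h3).resolve_left h2
  have hTv : Q (T v) ≠ 0 := by rw [hT]; exact hv
  have hle : (F ∙ T v) ≤ perp Q (F ∙ v) := by
    rw [Submodule.span_singleton_le_iff_mem]
    intro w hw
    obtain ⟨c, rfl⟩ := Submodule.mem_span_singleton.1 hw
    rw [polar_smul_left, hpol, smul_zero]
  have hn := nondeg_span h2 hv
  have hP : Nondeg (res Q (F ∙ v ⊔ F ∙ T v)) := nondeg_sup hn (nondeg_span h2 hTv) hle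
  have hd : finrank F ↥(F ∙ v ⊔ F ∙ T v) = 2 := by
    rw [finrank_sup_perp hn hle, finrank_span_aniso hv, finrank_span_aniso hTv]
  have hmem : ∀ w ∈ F ∙ v ⊔ F ∙ T v, ∃ a b : F, w = a • v + b • T v := by
    intro w hw
    obtain ⟨x, hx, y, hy, rfl⟩ := Submodule.mem_sup.1 hw
    obtain ⟨a, rfl⟩ := Submodule.mem_span_singleton.1 hx
    obtain ⟨b, rfl⟩ := Submodule.mem_span_singleton.1 hy
    exact ⟨a, b, rfl⟩
  have hQ : ∀ a b : F, Q (a • v + b • T v) = (a * a + b * b) * Q v := by
    intro a b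
    rw [Q_add, QuadraticMap.map_smul, QuadraticMap.map_smul, polar_smul_left, polar_smul_right, hpol,
      hT]
    simp only [smul_eq_mul]
    ring
  refine ⟨_, ?_, hP, hd, ?_⟩
  · intro w hw
    obtain ⟨a, b, rfl⟩ := hmem w hw
    rw [map_add, map_smul, map_smul, hTT, add_comm]
    refine Submodule.add_mem_sup ?_ ?_
    · exact Submodule.smul_mem _ _ (Submodule.neg_mem _ (Submodule.mem_span_singleton_self v))
    · exact Submodule.smul_mem _ _ (Submodule.mem_span_singleton_self _)
  · constructor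
    · rintro ⟨U, hU, hUd⟩
      rw [hd] at hUd
      obtain ⟨x, hx, hx0⟩ := exists_ne_zero_of_finrank_pos (U := U) (by omega)
      obtain ⟨a, b, hab⟩ := hmem x x.2
      have h3 : Q (x : V) = 0 := hU x hx
      rw [hab, hQ] at h3
      have h4 := (mul_eq_zero.1 h3).resolve_right hv
      have hb : b ≠ 0 := by
        rintro rfl
        have ha : a = 0 := by
          rw [mul_zero, add_zero] at h4
          exact mul_self_eq_zero.1 h4
        apply hx0
        apply Subtype.ext
        rw [hab, ha, zero_smul, zero_smul, add_zero]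
        rfl
      refine ⟨a / b, ?_⟩
      field_simp
      linear_combination (-1 : F) * h4
    · rintro ⟨s, hs⟩
      have hx : s • v + T v ∈ F ∙ v ⊔ F ∙ T v :=
        Submodule.add_mem_sup (Submodule.smul_mem _ _ (Submodule.mem_span_singleton_self v))
          (Submodule.mem_span_singleton_self _)
      have hQx : Q (s • v + T v) = 0 := by
        have := hQ s 1
        rw [one_smul] at this
        rw [this, ← hs]; ring
      refine isPlus_of_le hP (U := F ∙ (⟨_, hx⟩ : ↥(F ∙ v ⊔ F ∙ T v))) ?_ ?_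
      · intro u hu
        obtain ⟨c, rfl⟩ := Submodule.mem_span_singleton.1 hu
        rw [QuadraticMap.map_smul]
        have : res Q _ (⟨_, hx⟩ : ↥(F ∙ v ⊔ F ∙ T v)) = 0 := hQx
        rw [this, smul_zero]
      · rw [hd, finrank_span_singleton]
        intro h0
        have h1 := congrArg Subtype.val h0
        have h1' : s • v + T v = 0 := h1
        have h5 : polar Q (T v) (s • v + T v) = 0 := by rw [h1', polar_zero_right]
        rw [polar_add_right, polar_smul_right, polar_comm, hpol, smul_zero, zero_add, polar_self'] at h5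
        exact mul_ne_zero h2 hTv h5

end Inv

/-- **structure** of an isometry with square `-1` -/
theorem four_struct [Finite F] (h2 : (2 : F) ≠ 0) (n : ℕ) :
    ∀ {V : Type v} [AddCommGroup V] [Module F V] [FiniteDimensional F V] {Q : QuadraticForm F V},
    Nondeg Q → finrank F V = n → ∀ {T : V ≃ₗ[F] V}, T ∈ O Q → (∀ v, T (T v) = -v) →
    Even n ∧ (∀ k, 2 * k ≤ n → ∃ W : Submodule F V, (∀ w ∈ W, T w ∈ W) ∧ Nondeg (res Q W) ∧
      finrank F W = 2 * k) ∧ (IsPlus Q ↔ (IsSquare (-1 : F) ∨ Even (n / 2))) := by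
  induction n using Nat.strong_induction_on with
  | _ n ih =>
  intro V _ _ _ Q hQ hn T hT hTT
  rcases Nat.eq_zero_or_pos n with hn0 | hn0
  · subst hn0
    refine ⟨Even.zero, ?_, iff_of_true (isPlus_of_finrank_zero hn) (Or.inr (by decide))⟩
    intro k hk
    refine ⟨⊥, ?_, ?_, by rw [finrank_bot]; omega⟩
    · intro w hw
      rw [Submodule.mem_bot] at hw ⊢
      rw [hw, map_zero]
    · rw [nondeg_res_iff]
      intro x hx _
      exact (Submodule.mem_bot F).1 hx
  obtain ⟨v, hv⟩ := exists_aniso_vec hQ (by omega)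
  obtain ⟨P, hPT, hP, hPd, hPp⟩ := plane_props h2 hT hTT hv
  have hd := finrank_add_perp hQ P
  have hP' := map_mem_perp hT hPT
  have hPn := nondeg_perp hQ hP
  obtain ⟨h1, h3, h4⟩ := ih (n - 2) (by omega) hPn (by omega) (resT_mem hT hP')
    (fun w => Subtype.ext (hTT w))
  have hne : Even n := by
    obtain ⟨k, hk⟩ := h1
    exact ⟨k + 1, by omega⟩
  refine ⟨hne, ?_, ?_⟩
  · intro k hk
    rcases Nat.eq_zero_or_pos k with hk0 | hk0
    · subst hk0
      refine ⟨⊥, ?_, ?_, by rw [finrank_bot]⟩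
      · intro w hw
        rw [Submodule.mem_bot] at hw ⊢
        rw [hw, map_zero]
      · rw [nondeg_res_iff]
        intro x hx _
        exact (Submodule.mem_bot F).1 hx
    · obtain ⟨W, hWT, hW, hWd⟩ := h3 (k - 1) (by omega)
      obtain ⟨e, he⟩ := exists_res_equiv (Q := Q) (perp Q P) W
      have hle := map_subtype_le_perp W
      refine ⟨P ⊔ W.map (perp Q P).subtype, inv_sup hPT (inv_map_subtype hP' hWT),
        nondeg_sup hP (nondeg_of_equiv e he hW) hle, ?_⟩
      rw [finrank_sup_perp hP hle, hPd, ← e.finrank_eq, hWd]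
      omega
  · rw [isPlus_iff_perp hQ hP (by rw [hn]; exact hne) (by rw [hPd]; decide), hPp, h4]
    have h5 : (n - 2) / 2 = n / 2 - 1 := by omega
    obtain ⟨k, hk⟩ := hne
    have h6 : Even (n / 2) ↔ ¬ Even ((n - 2) / 2) := by
      rw [h5]
      have : n / 2 = (n / 2 - 1) + 1 := by omega
      conv_lhs => rw [this]
      rw [Nat.even_add_one]
    rw [h6]
    tauto

/-- an isometry with square `-1` lies in `E Q` if 2 is a square -/
theorem mem_E_of_two [Finite F] {V : Type v} [AddCommGroup V] [Module F V] [FiniteDimensional F V]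
    {Q : QuadraticForm F V} (h2 : (2 : F) ≠ 0) (hG : Good Q) {T : V ≃ₗ[F] V} (hT : T ∈ O Q)
    (hTT : ∀ v, T (T v) = -v) (hsq : IsSquare (2 : F)) : T ∈ E Q := by
  obtain ⟨s, hs⟩ := hsq
  have hs0 : s ≠ 0 := by
    rintro rfl
    rw [mul_zero] at hs
    exact h2 hs
  have hss : s⁻¹ * s⁻¹ * 2 = 1 := by rw [hs]; field_simp
  let f : V →ₗ[F] V := s⁻¹ • (LinearMap.id + (T : V →ₗ[F] V))
  let g : V →ₗ[F] V := s⁻¹ • (LinearMap.id - (T : V →ₗ[F] V))
  have hf : ∀ v, f v = s⁻¹ • (v + T v) := fun _ => rfl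
  have hg : ∀ v, g v = s⁻¹ • (v - T v) := fun _ => rfl
  let y : V ≃ₗ[F] V := LinearEquiv.ofLinearMap f g (by
    ext v
    change f (g v) = v
    rw [hf, hg, map_smul, map_sub, hTT, ← smul_add, smul_smul]
    have : v - T v + (T v - -v) = (2 : F) • v := by rw [two_smul]; abel
    rw [this, smul_smul, hss, one_smul]) (by
    ext v
    change g (f v) = v
    rw [hf, hg, map_smul, map_add, hTT, ← smul_sub, smul_smul]
    have : v + T v - (T v + -v) = (2 : F) • v := by rw [two_smul]; abel
    rw [this, smul_smul, hss, one_smul])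
  have hy : ∀ v, y v = s⁻¹ • (v + T v) := fun _ => rfl
  have hpol : ∀ v, polar Q v (T v) = 0 := by
    intro v
    have h1 := polar_map hT v (T v)
    rw [hTT, polar_neg_right, polar_comm] at h1
    have h3 : (2 : F) * polar Q v (T v) = 0 := by
      rw [two_mul]
      nth_rewrite 1 [← h1]
      exact neg_add_cancel _
    exact (mul_eq_zero.1 h3).resolve_left h2
  have hyO : y ∈ O Q := by
    intro v
    rw [hy, QuadraticMap.map_smul, Q_add, hpol, hT, add_zero, smul_eq_mul, ← two_mul, ← mul_assoc, hss,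
      one_mul]
  have hyy : T = y * y := by
    ext v
    rw [LinearEquiv.mul_apply, hy, hy, map_smul, map_add, hTT, ← smul_add, smul_smul]
    have : v + T v + (T v + -v) = (2 : F) • T v := by rw [two_smul]; abel
    rw [this, smul_smul, hss, one_smul]
  rw [hyy]
  exact sq_mem_E hG hyO

end Cfsg.Agent.H958
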