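import Mathlib
import Cfsg.Agent.H958.FourStruct

/-!
# Existence of isometries with square `-1`
-/

set_option autoImplicit false

namespace Cfsg.Agent.H958

open Module QuadraticMap Cfsg.Agent.LieClassical.OrthCore Cfsg.Agent.LieClassical.OrthTrans
  Cfsg.Agent.H955
open scoped commutatorElement

universe u v w
variable {F : Type u} [Field F]

section Conj

variable {V : Type v} [AddCommGroup V] [Module F V] {Q : QuadraticForm F V}
  {V' : Type w} [AddCommGroup V'] [Module F V'] {Q' : QuadraticForm F V'}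

/-- transport of automorphisms -/
def cj (e : V ≃ₗ[F] V') (T : V' ≃ₗ[F] V') : V ≃ₗ[F] V := e.trans (T.trans e.symm)

theorem cj_apply (e : V ≃ₗ[F] V') (T : V' ≃ₗ[F] V') (v : V) : cj e T v = e.symm (T (e v)) := rfl

theorem cj_mul (e : V ≃ₗ[F] V') (S T : V' ≃ₗ[F] V') : cj e (S * T) = cj e S * cj e T := by
  ext v
  rw [LinearEquiv.mul_apply, cj_apply, cj_apply, cj_apply, LinearEquiv.apply_symm_apply]
  rfl

theorem cj_mem_O {e : V ≃ₗ[F] V'} (he : ∀ v, Q' (e v) = Q v) {T : V' ≃ₗ[F] V'} (hT : T ∈ O Q') :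
    cj e T ∈ O Q := by
  intro v
  rw [cj_apply, ← he, LinearEquiv.apply_symm_apply, hT, he]

end Conj

/-- the sum of squares -/
def sqForm (F : Type u) [Field F] (d : ℕ) : QuadraticForm F (Fin d → F) :=
  ∑ i : Fin d, QuadraticMap.linMulLin (LinearMap.proj i) (LinearMap.proj i)

theorem sqForm_apply (d : ℕ) (x : Fin d → F) : sqForm F d x = ∑ i, x i * x i := by
  simp [sqForm]

theorem nondeg_sqForm (h2 : (2 : F) ≠ 0) (d : ℕ) : Nondeg (sqForm F d) := by
  intro x hx
  funext i
  have h1 := hx (Pi.single i 1)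
  have h3 : polar (sqForm F d) x (Pi.single i 1) = 2 * x i := by
    simp only [polar, sqForm_apply]
    rw [← Finset.sum_sub_distrib, ← Finset.sum_sub_distrib, Finset.sum_eq_single i]
    · rw [Pi.add_apply, Pi.single_eq_same]; ring
    · intro j _ hj
      rw [Pi.add_apply, Pi.single_eq_of_ne hj]; ring
    · intro h
      exact absurd (Finset.mem_univ i) h
  rw [h3] at h1
  exact (mul_eq_zero.1 h1).resolve_left h2

/-- `(x, y) ↦ (-y, x)` -/
def rot (M : Type*) [AddCommGroup M] [Module F M] : (M × M) ≃ₗ[F] (M × M) where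
  toFun p := (-p.2, p.1)
  invFun p := (p.2, -p.1)
  map_add' p p' := by
    refine Prod.ext ?_ rfl
    change -(p.2 + p'.2) = -p.2 + -p'.2
    abel
  map_smul' c p := by
    refine Prod.ext ?_ rfl
    change -(c • p.2) = c • -p.2
    rw [smul_neg]
  left_inv p := Prod.ext rfl (neg_neg _)
  right_inv p := Prod.ext (neg_neg _) rfl

/-- the model -/
theorem exists_rot [Finite F] (h2 : (2 : F) ≠ 0) (d : ℕ) :
    ∃ (X : Type u) (_ : AddCommGroup X) (_ : Module F X) (_ : FiniteDimensional F X)
      (R : QuadraticForm F X), Nondeg R ∧ finrank F X = 2 * d ∧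
      ∃ T ∈ O R, ∀ v, T (T v) = -v := by
  refine ⟨(Fin d → F) × (Fin d → F), inferInstance, inferInstance, inferInstance,
    osum (sqForm F d) (sqForm F d), nondeg_osum (nondeg_sqForm h2 d) (nondeg_sqForm h2 d), ?_,
    rot (Fin d → F), ?_, ?_⟩
  · rw [Module.finrank_prod, Module.finrank_fin_fun]; ring
  · rintro ⟨x, y⟩
    change osum (sqForm F d) (sqForm F d) (-y, x) = _
    rw [osum_apply, osum_apply, QuadraticMap.map_neg]
    ring
  · intro p
    rfl

/-- **existence** of an element of `E Q` with square `-1` -/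
theorem exists_four [Finite F] {V : Type v} [AddCommGroup V] [Module F V] [FiniteDimensional F V]
    {Q : QuadraticForm F V} (h2 : (2 : F) ≠ 0) (hG : Good Q) {d : ℕ} (hd : finrank F V = 2 * d)
    (hP : IsPlus Q ↔ (IsSquare (-1 : F) ∨ Even d)) (h : Even d ∨ IsSquare (2 : F)) :
    ∃ T ∈ E Q, ∀ v, T (T v) = -v := by
  have hVe : Even (finrank F V) := by rw [hd]; exact even_two_mul d
  by_cases hsq : IsSquare (2 : F)
  · obtain ⟨X, _, _, _, R, hR, hRd, T, hT, hTT⟩ := exists_rot (F := F) h2 d
    obtain ⟨-, -, h3⟩ := four_struct h2 _ hR hRd hT hTT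
    obtain ⟨e, he⟩ := exists_equiv_of_isPlus_iff hG.nondeg hR hVe (by rw [hd, hRd]) (by
      rw [hP, h3, Nat.mul_div_cancel_left _ (by norm_num)])
    have hc : ∀ v, cj e T (cj e T v) = -v := by
      intro v
      rw [cj_apply, cj_apply, LinearEquiv.apply_symm_apply, hTT, map_neg, LinearEquiv.symm_apply_apply]
    exact ⟨cj e T, mem_E_of_two h2 hG (cj_mem_O he hT) hc hsq, hc⟩
  · have hde : Even d := h.resolve_right hsq
    obtain ⟨k, hk⟩ := hde
    obtain ⟨X, _, _, _, R, hR, hRd, T, hT, hTT⟩ := exists_rot (F := F) h2 k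
    have hTT' : ∀ v : X × X, (LinearEquiv.prodCongr T T) ((LinearEquiv.prodCongr T T) v) = -v := by
      rintro ⟨x, y⟩
      exact Prod.ext (hTT x) (hTT y)
    have hO1 : (LinearEquiv.prodCongr T T : (X × X) ≃ₗ[F] (X × X)) ∈ O (osum R R) := by
      rintro ⟨x, y⟩
      change osum R R (T x, T y) = osum R R (x, y)
      rw [osum_apply, osum_apply, hT, hT]
    have hO2 : (LinearEquiv.prodCongr T 1 : (X × X) ≃ₗ[F] (X × X)) ∈ O (osum R R) := by
      rintro ⟨x, y⟩
      change osum R R (T x, y) = osum R R (x, y)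
      rw [osum_apply, osum_apply, hT]
    have hO3 : (LinearEquiv.prodComm F X X) ∈ O (osum R R) := by
      rintro ⟨x, y⟩
      change osum R R (y, x) = osum R R (x, y)
      rw [osum_apply, osum_apply, add_comm]
    have hXX : finrank F (X × X) = 2 * d := by rw [Module.finrank_prod, hRd]; omega
    have hn := nondeg_osum hR hR
    obtain ⟨-, -, h3⟩ := four_struct h2 _ hn hXX hO1 hTT'
    obtain ⟨e, he⟩ := exists_equiv_of_isPlus_iff hG.nondeg hn hVe (by rw [hd, hXX]) (by
      rw [hP, h3, Nat.mul_div_cancel_left _ (by norm_num)])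
    refine ⟨cj e (LinearEquiv.prodCongr T T), ?_, ?_⟩
    · set u' := cj e (LinearEquiv.prodCongr T 1 : (X × X) ≃ₗ[F] (X × X)) with hu'
      set s' := cj e (LinearEquiv.prodComm F X X) with hs'
      have hu : u' ∈ O Q := cj_mem_O he hO2
      have hs : s' ∈ O Q := cj_mem_O he hO3
      have hss : s' * s' = 1 := by
        rw [hs', ← cj_mul]
        ext v
        change e.symm (LinearEquiv.prodComm F X X (LinearEquiv.prodComm F X X (e v))) = v
        rw [show LinearEquiv.prodComm F X X (LinearEquiv.prodComm F X X (e v)) = e v from rfl,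
          LinearEquiv.symm_apply_apply]
      have hsi : s'⁻¹ = s' := inv_eq_of_mul_eq_one_left hss
      have e1 : cj e (LinearEquiv.prodCongr T T : (X × X) ≃ₗ[F] (X × X)) = u' * (s' * u' * s') := by
        rw [hu', hs', ← cj_mul, ← cj_mul, ← cj_mul]
        rfl
      have e2 : u' * (s' * u' * s') = (u' * u') * ⁅u'⁻¹, s'⁆ := by
        rw [commutatorElement_def, hsi]
        group
      rw [e1, e2]
      exact (E Q).mul_mem (sq_mem_E hG hu)
        (hG.commutator_le_E (Subgroup.commutator_mem_commutator ((O Q).inv_mem hu) hs))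
    · intro v
      rw [cj_apply, cj_apply, LinearEquiv.apply_symm_apply, hTT', map_neg,
        LinearEquiv.symm_apply_apply]

end Cfsg.Agent.H958
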