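import Mathlib
import Cfsg.Agent.H958.JThree

/-!
# Existence of isometries of order `p` without invariant subspaces of certain kinds
-/

set_option autoImplicit false

namespace Cfsg.Agent.H958

open Module QuadraticMap Cfsg.Agent.LieClassical.OrthCore Cfsg.Agent.LieClassical.OrthTrans
  Cfsg.Agent.H955 Cfsg.Agent.LieClassical.OrthFinite

universe u v w
variable {F : Type u} [Field F] [Finite F]
  {V : Type v} [AddCommGroup V] [Module F V] [FiniteDimensional F V] {Q : QuadraticForm F V}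

omit [Finite F] in
/-- full rank on a space of plus type of dimension `4k` -/
theorem exists_full (hQ : Nondeg Q) {k : ℕ} (hd : finrank F V = 2 * (2 * k)) (hp : IsPlus Q) :
    ∃ T, IsJThree Q T ∧ rkOne T = 2 * k ∧ rkTwo T = 0 ∧ ∀ v, T v = v → Q v = 0 := by
  obtain ⟨U, hU, hUd⟩ := hp
  obtain ⟨T, hT, hJ, hTU⟩ := exists_JTwo hQ hU (k := k) (by omega)
  refine ⟨T, hJ.isJThree, ?_, hJ.rkTwo_eq, ?_⟩
  · rw [rkOne_eq, hTU]; omega
  · intro v hv
    have h1 : v ∈ fixS T := mem_fixS.2 hv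
    rw [← perp_comS_eq hQ hJ.mem, hTU] at h1
    have h2 : U = perp Q U := by
      apply Submodule.eq_of_le_of_finrank_eq
      · intro x hx y hy
        exact polar_eq_zero_of_tsing hU hy hx
      · have := finrank_add_perp hQ U
        omega
    rw [← h2] at h1
    exact hU v h1

theorem exists_E2 (h2 : (2 : F) ≠ 0) (hQ : Nondeg Q) {d : ℕ} (hd : finrank F V = 2 * d) (hdo : Odd d)
    (hd5 : 5 ≤ d) : ∃ T, IsJThree Q T ∧ rkOne T = d + 1 ∧ rkTwo T = 2 := by
  obtain ⟨k, hk⟩ := hdo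
  obtain ⟨X, hX, hXd, hXp⟩ := exists_subspace hQ (by rw [hd]; exact even_two_mul d) (d - 3) (by omega)
    (by omega) True
  obtain ⟨T₃, hT₃, h31, h32, -⟩ := exists_full hX (k := k - 1) (by rw [hXd]; omega) (hXp.2 trivial)
  have hP := nondeg_perp hQ hX
  have hPd := finrank_add_perp hQ X
  obtain ⟨Y, hY, hYd⟩ := exists_nd_subspace h2 hP 3 (by omega)
  have hZ := nondeg_perp hP hY
  have hZd := finrank_add_perp hP Y
  obtain ⟨T₁, hT₁, h11, h12, -⟩ := exists_three h2 hY hYd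
  obtain ⟨T₂, hT₂, h21, h22, -⟩ := exists_three h2 hZ (by omega)
  obtain ⟨T', hT', -, -, h1, h3⟩ := exists_glue_three hY hT₁ hT₂
  obtain ⟨T, hT, -, -, h4, h5⟩ := exists_glue_three hX hT₃ hT'
  exact ⟨T, hT, by omega, by omega⟩

theorem exists_E3 (h2 : (2 : F) ≠ 0) (hQ : Nondeg Q) {d : ℕ} (hd : finrank F V = 2 * d) (hde : Even d)
    (hd4 : 4 ≤ d) {δ : F} (hδ : δ ≠ 0) :
    ∃ T, IsJThree Q T ∧ rkOne T = d ∧ rkTwo T = 1 ∧ ∀ v, T v = v → ∃ c : F, Q v = c ^ 2 * δ := by
  obtain ⟨k, hk⟩ := hde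
  obtain ⟨w, hw⟩ := exists_value h2 hQ (by omega) δ
  have hw0 : Q w ≠ 0 := by rw [hw]; exact hδ
  have hL := nondeg_span h2 hw0
  have hLd := finrank_span_aniso hw0
  have hP := nondeg_perp hQ hL
  have hPd := finrank_add_perp hQ (F ∙ w)
  rw [hLd] at hPd
  -- a subspace of plus type of dimension `2 (d - 2)`
  obtain ⟨X₀, _, _, _, R, hR, hRd, hRp⟩ := exists_model (F := F) (d - 2) (by omega) True
  obtain ⟨f, hf, hfQ⟩ := exists_embedding_odd h2 _ hR hRd hP (by omega)
  obtain ⟨hX, hXd, hXp⟩ := range_props hR hf hfQ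
  rw [hRd] at hXd
  rw [hRp] at hXp
  set X := LinearMap.range f with hXdef
  obtain ⟨T₃, hT₃, h31, h32, h33⟩ := exists_full hX (k := k - 1) (by rw [hXd]; omega) (hXp.2 trivial)
  have hZ := nondeg_perp hP hX
  have hZd := finrank_add_perp hP X
  obtain ⟨T₁, hT₁, h11, h12, h13⟩ := exists_three h2 hZ (by omega)
  obtain ⟨T', hT', g1, g2, h1, h3⟩ := exists_glue_three hX hT₃ hT₁
  have hone : IsJThree (res Q (F ∙ w)) 1 := ⟨(O _).one_mem, fun v => by
    have : nu (1 : (F ∙ w) ≃ₗ[F] (F ∙ w)) v = 0 := sub_self v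
    rw [this, map_zero, map_zero]⟩
  have hnu0 : nu (1 : (F ∙ w) ≃ₗ[F] (F ∙ w)) = 0 := by
    ext v
    exact congrArg Subtype.val (sub_self v)
  obtain ⟨T, hT, g3, g4, h4, h5⟩ := exists_glue_three hL hone hT'
  have r1 : rkOne (1 : (F ∙ w) ≃ₗ[F] (F ∙ w)) = 0 := by
    rw [rkOne, hnu0, LinearMap.range_zero, finrank_bot]
  have r2 : rkTwo (1 : (F ∙ w) ≃ₗ[F] (F ∙ w)) = 0 := by
    rw [rkTwo, hnu0, LinearMap.comp_zero, LinearMap.range_zero, finrank_bot]
  refine ⟨T, hT, by omega, by omega, ?_⟩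
  intro v hv
  obtain ⟨⟨x, y⟩, rfl⟩ := (decomp hL).surjective v
  rw [Q_decomp]
  simp only
  rw [decomp_apply] at hv
  simp only at hv
  rw [map_add, g3, g4] at hv
  have hy : T' y = y := by
    have h6 : (T' y : V) = y := add_left_cancel hv
    exact Subtype.ext h6
  have hQy : Q (y : V) = 0 := by
    obtain ⟨⟨a, b⟩, rfl⟩ := (decomp hX).surjective y
    have h7 := Q_decomp hX (a, b)
    rw [decomp_apply] at hy
    simp only at hy
    rw [map_add, g1, g2] at hy
    -- uniqueness of the decomposition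
    have h8 : ((T₃ a - a : X) : perp Q (F ∙ w)) = ((b - T₁ b : perp (res Q (perp Q (F ∙ w))) X) : perp Q (F ∙ w)) := by
      rw [AddSubgroupClass.coe_sub, AddSubgroupClass.coe_sub, sub_eq_sub_iff_add_eq_add, hy, add_comm]
    have h9 : ((T₃ a - a : X) : perp Q (F ∙ w)) = 0 :=
      Submodule.disjoint_def.1 (isCompl_perp hX).disjoint _ (T₃ a - a).2 (by rw [h8]; exact (b - T₁ b).2)
    have h10 : T₃ a = a := sub_eq_zero.1 (Subtype.ext h9)
    have h11 : T₁ b = b := by
      rw [h9] at h8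
      exact (sub_eq_zero.1 (Subtype.ext h8.symm)).symm
    have h12 : Q ((decomp hX (a, b) : perp Q (F ∙ w)) : V) = res Q (perp Q (F ∙ w)) (decomp hX (a, b)) := rfl
    rw [h12, h7]
    have h14 := h33 a h10
    have h15 := h13 b h11
    rw [res_apply] at h14 h15
    simp only
    rw [h14, h15, add_zero]
  obtain ⟨c, hc⟩ := Submodule.mem_span_singleton.1 x.2
  refine ⟨c, ?_⟩
  rw [hQy, add_zero, ← hc, QuadraticMap.map_smul, hw, smul_eq_mul, pow_two]

/-- the discriminant of the anisotropic part is unique up to squares. -/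
theorem aniso_unique (h2 : (2 : F) ≠ 0) (hQ : Nondeg Q) {a b : V} (ha : Q a ≠ 0) (hb : Q b ≠ 0)
    (hpa : IsPlus (res Q (perp Q (F ∙ a)))) (hpb : IsPlus (res Q (perp Q (F ∙ b)))) :
    ∃ c : F, Q a = c ^ 2 * Q b := by
  have hA := nondeg_span h2 ha
  have hB := nondeg_span h2 hb
  have h1 := finrank_add_perp hQ (F ∙ a)
  have h3 := finrank_add_perp hQ (F ∙ b)
  rw [finrank_span_aniso ha] at h1
  rw [finrank_span_aniso hb] at h3
  obtain ⟨e, he⟩ := exists_equiv_of_isPlus_iff (nondeg_perp hQ hA) (nondeg_perp hQ hB) (by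
    obtain ⟨U, -, hU⟩ := hpa
    rw [← hU]; exact even_two_mul _) (by omega) (iff_of_true hpa hpb)
  obtain ⟨g, hg, hgm⟩ := exists_conj hQ e he
  have h4 := perp_map hg (perp Q (F ∙ a))
  rw [hgm, perp_perp hQ, perp_perp hQ] at h4
  have h5 : g a ∈ F ∙ b := by
    rw [h4]
    exact ⟨a, Submodule.mem_span_singleton_self a, rfl⟩
  obtain ⟨c, hc⟩ := Submodule.mem_span_singleton.1 h5
  refine ⟨c, ?_⟩
  rw [← hg a, ← hc, QuadraticMap.map_smul, smul_eq_mul, pow_two]

/-- every nondegenerate space of odd dimension has a nonsingular vector with complement of plus type. -/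
theorem exists_aniso_plus (h2 : (2 : F) ≠ 0) (hQ : Nondeg Q) {k : ℕ} (hd : finrank F V = 2 * k + 1) :
    ∃ a, Q a ≠ 0 ∧ IsPlus (res Q (perp Q (F ∙ a))) := by
  rcases Nat.eq_zero_or_pos k with rfl | hk
  · obtain ⟨a, ha⟩ := exists_aniso_vec hQ (by omega)
    refine ⟨a, ha, isPlus_of_finrank_zero ?_⟩
    have h3 := finrank_add_perp hQ (F ∙ a)
    rw [finrank_span_aniso ha] at h3
    omega
  obtain ⟨X₀, _, _, _, R, hR, hRd, hRp⟩ := exists_model (F := F) k hk True
  obtain ⟨f, hf, hfQ⟩ := exists_embedding_odd h2 _ hR hRd hQ (by omega)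
  obtain ⟨hX, hXd, hXp⟩ := range_props hR hf hfQ
  rw [hRp] at hXp
  have hP := nondeg_perp hQ hX
  have hPd := finrank_add_perp hQ (LinearMap.range f)
  obtain ⟨a, ha⟩ := exists_aniso_vec hP (by omega)
  have ha' : Q (a : V) ≠ 0 := ha
  refine ⟨(a : V), ha', ?_⟩
  have h3 := finrank_add_perp hQ (F ∙ (a : V))
  rw [finrank_span_aniso ha'] at h3
  have h4 : LinearMap.range f = perp Q (F ∙ (a : V)) := by
    apply Submodule.eq_of_le_of_finrank_eq
    · intro x hx y hy
      obtain ⟨c, rfl⟩ := Submodule.mem_span_singleton.1 hy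
      rw [polar_smul_left, polar_comm, a.2 x hx, smul_zero]
    · omega
  rw [← h4]
  exact hXp.2 trivial

/-- the key property of the element `exists_E3`. -/
theorem E3_no (h2 : (2 : F) ≠ 0) (hQ : Nondeg Q) {d : ℕ} (hd : finrank F V = 2 * d) {δ : F}
    {T : V ≃ₗ[F] V} (hT : IsJThree Q T) (hT1 : rkOne T = d) (hT2 : rkTwo T = 1)
    (hfix : ∀ v, T v = v → ∃ c : F, Q v = c ^ 2 * δ) {X : Submodule F V} (hX : Nondeg (res Q X))
    (hXT : ∀ v ∈ X, T v ∈ X) (hXd : finrank F X % 4 = 1) :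
    ∃ a : X, res Q X a ≠ 0 ∧ IsPlus (res (res Q X) (perp (res Q X) (F ∙ a))) ∧
      ∃ c : F, res Q X a = c ^ 2 * δ := by
  obtain ⟨a, b, a', b', h1, h3, ⟨k, hk⟩, hb, ha, ha', h4, h5⟩ := hT.split h2 hQ hX hXT
  have hPd := finrank_add_perp hQ X
  have ha'0 : a' = 0 := by omega
  have hdX : finrank F X = 2 * a + 1 := by omega
  have hJX := hT.resThree hXT
  -- `ν ^ 2 = 0` on `X`
  have hsq : ∀ v, nu (resT T X hXT) (nu (resT T X hXT) v) = 0 := by
    intro v
    have h6 : rkTwo (resT T X hXT) = 0 := by rw [← ha', ha'0]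
    rw [rkTwo, Submodule.finrank_eq_zero, LinearMap.range_eq_bot] at h6
    exact LinearMap.congr_fun h6 v
  have hJ2 := isJTwo_of_sq h2 hJX.mem hsq
  -- a fixed nonsingular vector
  have h7 := finrank_fixS_add_comS (resT T X hXT)
  obtain ⟨w, hw, hwQ⟩ : ∃ w ∈ fixS (resT T X hXT), res Q X w ≠ 0 := by
    by_contra hcon
    push Not at hcon
    have h8 := two_mul_finrank_le hX hcon
    rw [← rkOne_eq, ← ha] at h7
    omega
  have hwT : resT T X hXT w = w := mem_fixS.1 hw
  refine ⟨w, hwQ, ?_, ?_⟩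
  · have hL := nondeg_span h2 hwQ
    have hPn := nondeg_perp hX hL
    have hLT : ∀ v ∈ F ∙ w, resT T X hXT v ∈ F ∙ w := by
      intro v hv
      obtain ⟨c, rfl⟩ := Submodule.mem_span_singleton.1 hv
      rw [map_smul, hwT]
      exact hv
    have hPT := map_mem_perp hJX.mem hLT
    have h9 := hJ2.res hPT
    have h10 := (rk_add (isCompl_perp hL) hLT hPT).1
    have h11 : rkOne (resT (resT T X hXT) _ hLT) = 0 := by
      have : nu (resT (resT T X hXT) _ hLT) = 0 := by
        ext v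
        obtain ⟨c, hc⟩ := Submodule.mem_span_singleton.1 v.2
        have h12 : resT (resT T X hXT) _ hLT v = v := by
          apply Subtype.ext
          rw [coe_resT, ← hc, map_smul, hwT]
        rw [nu_apply, h12, sub_self]
        rfl
      rw [rkOne, this, LinearMap.range_zero, finrank_bot]
    have h13 := finrank_add_perp hX (F ∙ w)
    rw [finrank_span_aniso hwQ] at h13
    apply h9.plus hPn
    rw [rkOne_eq (resT (resT T X hXT) _ hPT)] at h10
    omega
  · exact hfix w (congrArg Subtype.val hwT)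

end Cfsg.Agent.H958
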