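import Mathlib
import Cfsg.Agent.H958.Syl
import Cfsg.Agent.H958.OddQ
import Cfsg.Agent.S0752

/-!
# Products of commuting Siegel transformations
-/

set_option autoImplicit false

namespace Cfsg.Agent.H958

open Module QuadraticMap Cfsg.Agent.LieClassical.OrthCore Cfsg.Agent.LieClassical.OrthTrans
  Cfsg.Agent.H955 Cfsg.Agent.LieClassical.OrthFinite

universe u v w
variable {F : Type u} [Field F]

section Rank

/-- dimension of a nondegenerate alternating space -/
theorem even_finrank_alt {U : Type v} [AddCommGroup U] [Module F U] [FiniteDimensional F U]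
    (B : LinearMap.BilinForm F U) (hA : B.IsAlt) (hnd : ∀ u, (∀ v, B u v = 0) → u = 0) :
    Even (finrank F U) := by
  obtain ⟨m, l, b, h1, h2, h3, h4⟩ := Cfsg.Agent.S0752.result B hA
  have hl : l = 0 := by
    by_contra hl
    have := hnd _ (h4 ⟨0, Nat.pos_of_ne_zero hl⟩)
    exact b.ne_zero _ this
  subst hl
  have := Module.finrank_eq_card_basis b
  simp at this
  exact ⟨m, by omega⟩

/-- the rank of an alternating form is even -/
theorem even_rank_alt {U : Type v} [AddCommGroup U] [Module F U] [FiniteDimensional F U]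
    (B : LinearMap.BilinForm F U) (hA : B.IsAlt) (N : Submodule F U)
    (hN : ∀ u, u ∈ N ↔ ∀ v, B u v = 0) : ∃ k, finrank F U = finrank F N + 2 * k := by
  obtain ⟨C, hC⟩ := Submodule.exists_isCompl N
  have hd := Submodule.finrank_add_eq_of_isCompl hC
  obtain ⟨k, hk⟩ := even_finrank_alt (B.restrict C) (fun x => hA x) (by
    intro u hu
    have h1 : (u : U) ∈ N := by
      rw [hN]
      intro v
      have hv : v ∈ N ⊔ C := by rw [hC.sup_eq_top]; trivial
      obtain ⟨a, ha, c, hc, rfl⟩ := Submodule.mem_sup.1 hv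
      have h2 : B u a = 0 := by
        have h3 := (hN a).1 ha u
        rw [← hA.neg_eq, neg_eq_zero]
        exact h3
      rw [map_add, h2, zero_add]
      exact hu ⟨c, hc⟩
    exact Subtype.ext (Submodule.disjoint_def.1 hC.disjoint _ h1 u.2))
  exact ⟨k, by omega⟩

end Rank

variable {V : Type v} [AddCommGroup V] [Module F V] {Q : QuadraticForm F V}

/-- `T - 1` -/
def nu (T : V ≃ₗ[F] V) : V →ₗ[F] V := (T : V →ₗ[F] V) - LinearMap.id

theorem nu_apply (T : V ≃ₗ[F] V) (v : V) : nu T v = T v - v := rfl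

theorem range_nu (T : V ≃ₗ[F] V) : LinearMap.range (nu T) = comS T := rfl

theorem map_nu_le {T : V ≃ₗ[F] V} {W : Submodule F V} (h : ∀ w ∈ W, T w ∈ W) : W.map (nu T) ≤ W := by
  rintro _ ⟨w, hw, rfl⟩
  exact W.sub_mem (h w hw) hw

/-- additivity of the rank -/
theorem finrank_range_add [FiniteDimensional F V] (f : V →ₗ[F] V) {W P : Submodule F V}
    (hc : IsCompl W P) (hW : W.map f ≤ W) (hP : P.map f ≤ P) :
    finrank F (LinearMap.range f) = finrank F (W.map f) + finrank F (P.map f) := by
  have h1 : LinearMap.range f = W.map f ⊔ P.map f := by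
    rw [← Submodule.map_sup, hc.sup_eq_top, Submodule.map_top]
  have h2 : W.map f ⊓ P.map f = ⊥ := by
    rw [eq_bot_iff, ← hc.inf_eq_bot]
    exact inf_le_inf hW hP
  have h3 := Submodule.finrank_sup_add_finrank_inf_eq (W.map f) (P.map f)
  rw [h2, finrank_bot, add_zero] at h3
  rw [h1, h3]

theorem map_comS_resT_eq [FiniteDimensional F V] {T : V ≃ₗ[F] V} {W : Submodule F V}
    (h : ∀ w ∈ W, T w ∈ W) : (comS (resT T W h)).map W.subtype = W.map (nu T) := by
  ext v
  constructor
  · rintro ⟨u, hu, rfl⟩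
    obtain ⟨w, rfl⟩ := mem_comS.1 hu
    exact ⟨w, w.2, rfl⟩
  · rintro ⟨w, hw, rfl⟩
    exact ⟨resT T W h ⟨w, hw⟩ - ⟨w, hw⟩, sub_mem_comS _ _, rfl⟩

theorem finrank_comS_resT [FiniteDimensional F V] {T : V ≃ₗ[F] V} {W : Submodule F V}
    (h : ∀ w ∈ W, T w ∈ W) : finrank F (comS (resT T W h)) = finrank F (W.map (nu T)) := by
  rw [← map_comS_resT_eq h, Submodule.finrank_map_subtype_eq]

/-- `T - 1` has square zero and is "alternating". -/
structure IsJTwo (Q : QuadraticForm F V) (T : V ≃ₗ[F] V) : Prop where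
  mem : T ∈ O Q
  sq : ∀ v, T (T v - v) = T v - v
  alt : ∀ v, polar Q v (T v - v) = 0

namespace IsJTwo

variable {T : V ≃ₗ[F] V}

theorem sing (h : IsJTwo Q T) : ∀ u ∈ comS T, Q u = 0 := by
  intro u hu
  obtain ⟨v, rfl⟩ := mem_comS.1 hu
  have h1 := h.mem v
  have h2 : T v = v + (T v - v) := by abel
  rw [h2, Q_add, h.alt, add_zero] at h1
  exact add_left_cancel (h1.trans (add_zero _).symm)

theorem res [FiniteDimensional F V] (h : IsJTwo Q T) {W : Submodule F V} (hW : ∀ w ∈ W, T w ∈ W) :
    IsJTwo (res Q W) (resT T W hW) where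
  mem := resT_mem h.mem hW
  sq v := Subtype.ext (h.sq v)
  alt v := h.alt v

theorem pow_apply (h : IsJTwo Q T) (n : ℕ) (v : V) : (T ^ n) v = v + n • (T v - v) := by
  induction n with
  | zero => rw [pow_zero, zero_smul, add_zero]; rfl
  | succ n ih =>
    rw [pow_succ', LinearEquiv.mul_apply, ih, map_add, map_nsmul, h.sq, succ_nsmul]
    abel

theorem pow_char (h : IsJTwo Q T) {p : ℕ} [CharP F p] : T ^ p = 1 := by
  ext v
  rw [h.pow_apply, ← Nat.cast_smul_eq_nsmul F, CharP.cast_eq_zero, zero_smul, add_zero]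
  rfl

variable [FiniteDimensional F V]

theorem even (h : IsJTwo Q T) (hQ : Nondeg Q) : Even (finrank F (comS T)) := by
  let B : LinearMap.BilinForm F V := (polarBilin Q).compl₂ (nu T)
  obtain ⟨k, hk⟩ := even_rank_alt B (fun v => h.alt v) (fixS T) (by
    intro u
    rw [← perp_comS_eq hQ h.mem, mem_perp']
    constructor
    · intro h1 v
      exact h1 _ (sub_mem_comS T v)
    · intro h1 w hw
      obtain ⟨v, rfl⟩ := mem_comS.1 hw
      exact h1 v)
  have h1 := finrank_fixS_add_comS T
  exact ⟨k, by omega⟩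

theorem le (h : IsJTwo Q T) (hQ : Nondeg Q) : 2 * finrank F (comS T) ≤ finrank F V :=
  two_mul_finrank_le hQ h.sing

theorem plus (h : IsJTwo Q T) (hQ : Nondeg Q) (hd : finrank F V = 2 * finrank F (comS T)) : IsPlus Q :=
  isPlus_of_le hQ h.sing hd.le

/-- the constraints on an invariant nondegenerate subspace -/
theorem split (h : IsJTwo Q T) (hQ : Nondeg Q) {W : Submodule F V} (hW : Nondeg (H955.res Q W))
    (hT : ∀ w ∈ W, T w ∈ W) :
    ∃ a b, finrank F (comS T) = a + b ∧ Even a ∧ Even b ∧ 2 * a ≤ finrank F W ∧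
      2 * b ≤ finrank F (perp Q W) ∧ (finrank F W = 2 * a → IsPlus (H955.res Q W)) ∧
      (finrank F (perp Q W) = 2 * b → IsPlus (H955.res Q (perp Q W))) := by
  have hT' := map_mem_perp h.mem hT
  have hP := nondeg_perp hQ hW
  refine ⟨finrank F (comS (resT T W hT)), finrank F (comS (resT T _ hT')), ?_, (h.res hT).even hW,
    (h.res hT').even hP, (h.res hT).le hW, (h.res hT').le hP, (h.res hT).plus hW,
    (h.res hT').plus hP⟩
  rw [finrank_comS_resT, finrank_comS_resT, ← range_nu]
  exact finrank_range_add (nu T) (isCompl_perp hW) (map_nu_le hT) (map_nu_le hT')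

/-- not a scalar -/
theorem not_scalar (h : IsJTwo Q T) (hQ : Nondeg Q) (hpos : 0 < finrank F (comS T)) (z : F) :
    ¬ ∀ v, T v = z • v := by
  intro hz
  by_cases hz1 : z = 1
  · have : comS T = ⊥ := by
      rw [Submodule.eq_bot_iff]
      intro u hu
      obtain ⟨v, rfl⟩ := mem_comS.1 hu
      rw [hz, hz1, one_smul, sub_self]
    rw [this, finrank_bot] at hpos
    exact lt_irrefl _ hpos
  · have hz0 : z - 1 ≠ 0 := sub_ne_zero.2 hz1
    have hd : 0 < finrank F V := lt_of_lt_of_le hpos (Submodule.finrank_le _)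
    obtain ⟨v, hv⟩ := exists_aniso_vec hQ hd
    apply hv
    apply h.sing
    rw [mem_comS]
    refine ⟨(z - 1)⁻¹ • v, ?_⟩
    rw [hz]
    nth_rewrite 2 [← one_smul F ((z - 1)⁻¹ • v)]
    rw [← sub_smul, smul_smul, mul_inv_cancel₀ hz0, one_smul]

end IsJTwo

/-- partial products of Siegel transformations -/
theorem exists_siegel_prod {k : ℕ} (a b : Fin k → V) (ha : ∀ i, Q (a i) = 0) (hb : ∀ i, Q (b i) = 0)
    (hab : ∀ i j, polar Q (a i) (b j) = 0) (haa : ∀ i j, polar Q (a i) (a j) = 0)
    (hbb : ∀ i j, polar Q (b i) (b j) = 0) (s : Finset (Fin k)) :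
    ∃ T ∈ E Q, ∀ v, T v = v + ∑ i ∈ s, (polar Q (b i) v • a i - polar Q (a i) v • b i) := by
  classical
  induction s using Finset.induction_on with
  | empty => exact ⟨1, (E Q).one_mem, fun v => by rw [Finset.sum_empty, add_zero]; rfl⟩
  | insert j s hj ih =>
    obtain ⟨T, hT, hTv⟩ := ih
    have hba : polar Q (b j) (a j) = 0 := by rw [polar_comm]; exact hab j j
    refine ⟨siegel Q (b j) (a j) (hb j) hba * T, (E Q).mul_mem (siegel_mem_E _ _) hT, fun v => ?_⟩
    have key : ∀ w, (∀ i, polar Q w (a i) = 0) → (∀ i, polar Q w (b i) = 0) →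
        polar Q w (T v) = polar Q w v := by
      intro w h1 h2
      rw [hTv]
      have : ∀ t : Finset (Fin k), polar Q w (v + ∑ i ∈ t, (polar Q (b i) v • a i - polar Q (a i) v • b i))
          = polar Q w v := by
        intro t
        induction t using Finset.induction_on with
        | empty => rw [Finset.sum_empty, add_zero]
        | insert i t hi iht =>
          rw [Finset.sum_insert hi, add_left_comm, polar_add_right, iht, polar_sub_right,
            polar_smul_right, polar_smul_right, h1, h2]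
          simp
      exact this s
    rw [LinearEquiv.mul_apply]
    have hs : ∀ x, siegel Q (b j) (a j) (hb j) hba x = x + polar Q (b j) x • a j - polar Q (a j) x • b j := by
      intro x
      have h3 : siegel Q (b j) (a j) (hb j) hba x = siegelLin Q (b j) (a j) x := rfl
      rw [h3, siegelLin_apply, ha, zero_mul, zero_smul, sub_zero]
    rw [hs, key (b j) (fun i => by rw [polar_comm]; exact hab i j) (fun i => hbb j i),
      key (a j) (fun i => haa j i) (fun i => hab j i), Finset.sum_insert hj, hTv]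
    abel

/-- **existence**: a totally singular subspace of even dimension is the commutator space of an
element of `E Q` with the properties above. -/
theorem exists_JTwo [FiniteDimensional F V] (hQ : Nondeg Q) {U : Submodule F V} (hU : ∀ u ∈ U, Q u = 0)
    {k : ℕ} (hd : finrank F U = 2 * k) :
    ∃ T ∈ E Q, IsJTwo Q T ∧ comS T = U := by
  let bas : Module.Basis (Fin k ⊕ Fin k) F U :=
    (Module.finBasisOfFinrankEq F U hd).reindex ((finCongr (two_mul k)).trans finSumFinEquiv.symm)
  let a : Fin k → V := fun i => bas (Sum.inl i)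
  let b : Fin k → V := fun i => bas (Sum.inr i)
  have haU : ∀ i, a i ∈ U := fun i => (bas (Sum.inl i)).2
  have hbU : ∀ i, b i ∈ U := fun i => (bas (Sum.inr i)).2
  have hpol : ∀ x ∈ U, ∀ y ∈ U, polar Q x y = 0 := fun x hx y hy => polar_eq_zero_of_tsing hU hx hy
  obtain ⟨T, hT, hTv⟩ := exists_siegel_prod (Q := Q) a b (fun i => hU _ (haU i)) (fun i => hU _ (hbU i))
    (fun i j => hpol _ (haU i) _ (hbU j)) (fun i j => hpol _ (haU i) _ (haU j))
    (fun i j => hpol _ (hbU i) _ (hbU j)) Finset.univ
  have hν : ∀ v, T v - v = ∑ i, (polar Q (b i) v • a i - polar Q (a i) v • b i) := fun v => by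
    rw [hTv]; abel
  have hmem : ∀ v, T v - v ∈ U := fun v => by
    rw [hν]
    exact U.sum_mem fun i _ => U.sub_mem (U.smul_mem _ (haU i)) (U.smul_mem _ (hbU i))
  have hfix : ∀ v ∈ perp Q U, T v = v := by
    intro v hv
    rw [← sub_eq_zero, hν]
    refine Finset.sum_eq_zero fun i _ => ?_
    rw [hv _ (haU i), hv _ (hbU i), zero_smul, zero_smul, sub_zero]
  have hUp : U ≤ perp Q U := fun x hx y hy => hpol y hy x hx
  have hJ : IsJTwo Q T := by
    refine ⟨E_le_O hT, fun v => hfix _ (hUp (hmem v)), fun v => ?_⟩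
    rw [hν]
    have : ∀ t : Finset (Fin k), polar Q v (∑ i ∈ t, (polar Q (b i) v • a i - polar Q (a i) v • b i)) = 0 := by
      intro t
      classical
      induction t using Finset.induction_on with
      | empty => rw [Finset.sum_empty, polar_zero_right]
      | insert i t hi iht =>
        rw [Finset.sum_insert hi, polar_add_right, iht, polar_sub_right,
          polar_smul_right, polar_smul_right, polar_comm Q v (a i), polar_comm Q v (b i), smul_eq_mul,
          smul_eq_mul]
        ring
    exact this _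
  refine ⟨T, hT, hJ, ?_⟩
  have hle : comS T ≤ U := by
    intro u hu
    obtain ⟨v, rfl⟩ := mem_comS.1 hu
    exact hmem v
  have hfixle : fixS T ≤ perp Q U := by
    intro v hv
    have h0 : ∑ i, (polar Q (b i) v • bas (Sum.inl i) - polar Q (a i) v • bas (Sum.inr i)) = 0 := by
      apply Subtype.ext
      have h1 := hν v
      rw [mem_fixS.1 hv, sub_self] at h1
      rw [ZeroMemClass.coe_zero, h1, AddSubmonoidClass.coe_finsetSum]
      rfl
    have h2 : ∑ x : Fin k ⊕ Fin k, (Sum.elim (fun i => polar Q (b i) v) (fun i => - polar Q (a i) v) x) • bas x = 0 := by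
      rw [Fintype.sum_sum_type, ← h0, Finset.sum_sub_distrib]
      simp only [Sum.elim_inl, Sum.elim_inr, neg_smul, Finset.sum_neg_distrib]
      abel
    have h3 := Fintype.linearIndependent_iff.1 bas.linearIndependent _ h2
    have h4 : ∀ i, polar Q (b i) v = 0 := fun i => h3 (Sum.inl i)
    have h5 : ∀ i, polar Q (a i) v = 0 := fun i => neg_eq_zero.1 (h3 (Sum.inr i))
    intro u hu
    have h6 : ∀ x : U, polar Q (x : V) v = 0 := by
      intro x
      have h7 : (polarBilin Q).flip v ∘ₗ U.subtype = 0 := by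
        refine bas.ext fun j => ?_
        rcases j with j | j
        · exact h5 j
        · exact h4 j
      exact LinearMap.congr_fun h7 x
    exact h6 ⟨u, hu⟩
  apply Submodule.eq_of_le_of_finrank_le hle
  have h8 := Submodule.finrank_mono hfixle
  have h9 := finrank_fixS_add_comS T
  have h10 := finrank_add_perp hQ U
  omega

end Cfsg.Agent.H958
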