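import Mathlib
import Cfsg.Agent.H958.JTwo
import Cfsg.Agent.H958.FourStruct

/-!
# The structure of an isometry `T` with `(T - 1) ^ 2 = 0`, `polar v (T v) = 0`
-/

set_option autoImplicit false

namespace Cfsg.Agent.H958

open Module QuadraticMap Cfsg.Agent.LieClassical.OrthCore Cfsg.Agent.LieClassical.OrthTrans
  Cfsg.Agent.H955 Cfsg.Agent.LieClassical.OrthFinite

universe u v w
variable {F : Type u} [Field F]

section Block

variable {V : Type v} [AddCommGroup V] [Module F V] [FiniteDimensional F V] {Q : QuadraticForm F V}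
  {T : V ≃ₗ[F] V}

/-- nontrivial block of dimension 4 -/
theorem IsJTwo.exists_block (h : IsJTwo Q T) (hQ : Nondeg Q) {v : V} (hv : T v ≠ v) :
    ∃ C : Submodule F V, (∀ x ∈ C, T x ∈ C) ∧ Nondeg (H955.res Q C) ∧ finrank F C = 4 ∧
      IsPlus (H955.res Q C) := by
  have hs : ∀ x, Q (T x - x) = 0 := fun x => h.sing _ (sub_mem_comS T x)
  obtain ⟨w, hw⟩ := hQ.exists_polar_eq (sub_ne_zero.2 hv) 1
  set v' := T v - v with hv'
  set w' := T w - w with hw'
  have e1 : polar Q v' w = 1 := hw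
  have e1' : polar Q w v' = 1 := by rw [polar_comm]; exact hw
  have hvv' : polar Q v v' = 0 := h.alt v
  have hww' : polar Q w w' = 0 := h.alt w
  have hts : ∀ x ∈ comS T, ∀ y ∈ comS T, polar Q x y = 0 := fun x hx y hy =>
    polar_eq_zero_of_tsing h.sing hx hy
  have hv'w' : polar Q v' w' = 0 := hts _ (sub_mem_comS T v) _ (sub_mem_comS T w)
  have e2 : polar Q v w' = -1 := by
    have h1 := h.alt (v + w)
    rw [map_add] at h1
    have h2 : T v + T w - (v + w) = v' + w' := by rw [hv', hw']; abel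
    rw [h2, polar_add_left, polar_add_right, polar_add_right, hvv', hww', e1', add_zero, zero_add] at h1
    exact eq_neg_of_add_eq_zero_left h1
  have e2' : polar Q w' v = -1 := by rw [polar_comm]; exact e2
  let Φ : (F × F × F × F) →ₗ[F] V :=
    LinearMap.coprod (LinearMap.toSpanSingleton F V v) (LinearMap.coprod (LinearMap.toSpanSingleton F V w)
      (LinearMap.coprod (LinearMap.toSpanSingleton F V v') (LinearMap.toSpanSingleton F V w')))
  have hΦ : ∀ a b c e, Φ (a, b, c, e) = a • v + (b • w + (c • v' + e • w')) := fun _ _ _ _ => rfl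
  have hrad : ∀ a b c e, polar Q (Φ (a, b, c, e)) v = 0 → polar Q (Φ (a, b, c, e)) w = 0 →
      polar Q (Φ (a, b, c, e)) v' = 0 → polar Q (Φ (a, b, c, e)) w' = 0 →
      a = 0 ∧ b = 0 ∧ c = 0 ∧ e = 0 := by
    intro a b c e h1 h2 h3 h4
    have hb : b = 0 := by
      rw [hΦ] at h3
      simp only [polar_add_left, polar_smul_left, hvv', e1', polar_comm Q w' v', hv'w', smul_eq_mul] at h3
      have h5 : polar Q v' v' = 0 := hts _ (sub_mem_comS T v) _ (sub_mem_comS T v)
      rw [h5] at h3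
      simpa using h3
    have ha : a = 0 := by
      rw [hΦ] at h4
      simp only [polar_add_left, polar_smul_left, hww', e2, hv'w', smul_eq_mul] at h4
      have h5 : polar Q w' w' = 0 := hts _ (sub_mem_comS T w) _ (sub_mem_comS T w)
      rw [h5] at h4
      simpa using h4
    rw [ha, hb] at h1 h2
    have he : e = 0 := by
      rw [hΦ] at h1
      simp only [polar_add_left, polar_smul_left, zero_smul, zero_add, polar_comm Q v' v, hvv', e2',
        smul_eq_mul] at h1
      simpa using h1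
    have hc : c = 0 := by
      rw [hΦ] at h2
      simp only [polar_add_left, polar_smul_left, zero_smul, zero_add, e1, polar_comm Q w' w, hww',
        smul_eq_mul] at h2
      simpa using h2
    exact ⟨ha, hb, hc, he⟩
  have hinj : Function.Injective Φ := by
    rw [← LinearMap.ker_eq_bot, LinearMap.ker_eq_bot']
    rintro ⟨a, b, c, e⟩ h0
    obtain ⟨rfl, rfl, rfl, rfl⟩ := hrad a b c e (by rw [h0, polar_zero_left]) (by rw [h0, polar_zero_left])
      (by rw [h0, polar_zero_left]) (by rw [h0, polar_zero_left])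
    rfl
  have hmv : v ∈ LinearMap.range Φ := ⟨(1, 0, 0, 0), by rw [hΦ]; simp⟩
  have hmw : w ∈ LinearMap.range Φ := ⟨(0, 1, 0, 0), by rw [hΦ]; simp⟩
  have hmv' : v' ∈ LinearMap.range Φ := ⟨(0, 0, 1, 0), by rw [hΦ]; simp⟩
  have hmw' : w' ∈ LinearMap.range Φ := ⟨(0, 0, 0, 1), by rw [hΦ]; simp⟩
  have hnd : Nondeg (H955.res Q (LinearMap.range Φ)) := by
    rw [nondeg_res_iff]
    rintro _ ⟨⟨a, b, c, e⟩, rfl⟩ hx
    obtain ⟨rfl, rfl, rfl, rfl⟩ := hrad a b c e (hx v hmv) (hx w hmw) (hx v' hmv') (hx w' hmw')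
    exact map_zero Φ
  have hd : finrank F (LinearMap.range Φ) = 4 := by
    rw [LinearMap.finrank_range_of_inj hinj]
    simp only [Module.finrank_prod, Module.finrank_self]
  have hTv' : T v' = v' := h.sq v
  have hTw' : T w' = w' := h.sq w
  have hTv : T v = v + v' := by rw [hv']; abel
  have hTw : T w = w + w' := by rw [hw']; abel
  refine ⟨LinearMap.range Φ, ?_, hnd, hd, ?_⟩
  · rintro _ ⟨⟨a, b, c, e⟩, rfl⟩
    refine ⟨(a, b, a + c, b + e), ?_⟩
    rw [hΦ, hΦ]
    simp only [map_add, map_smul, hTv, hTw, hTv', hTw', smul_add, add_smul]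
    abel
  · refine isPlus_of_le hnd (U := (LinearMap.range (Φ ∘ₗ (LinearMap.inr F F (F × F × F)) ∘ₗ
      (LinearMap.inr F F (F × F)))).comap (LinearMap.range Φ).subtype) ?_ ?_
    · rintro ⟨u, hu⟩ ⟨⟨c, e⟩, hce⟩
      have h1 : u = c • v' + e • w' := by
        have h2 : (u : V) = Φ (0, 0, c, e) := hce.symm
        rw [h2, hΦ]; simp
      change Q u = 0
      rw [h1, Q_add, QuadraticMap.map_smul, QuadraticMap.map_smul, polar_smul_left, polar_smul_right,
        hv'w', hs, hs]
      simp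
    · have hle : LinearMap.range (Φ ∘ₗ (LinearMap.inr F F (F × F × F)) ∘ₗ (LinearMap.inr F F (F × F))) ≤
          LinearMap.range Φ := by
        rintro _ ⟨x, rfl⟩
        exact ⟨_, rfl⟩
      rw [hd, (Submodule.comapSubtypeEquivOfLe hle).finrank_eq, LinearMap.finrank_range_of_inj]
      · simp only [Module.finrank_prod, Module.finrank_self]; norm_num
      · refine hinj.comp ?_
        intro x y hxy
        have h3 := congrArg (fun p : F × F × F × F => p.2.2) hxy
        exact h3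

end Block

/-- **structure** -/
theorem jtwo_struct [Finite F] (n : ℕ) :
    ∀ {V : Type v} [AddCommGroup V] [Module F V] [FiniteDimensional F V] {Q : QuadraticForm F V},
    Nondeg Q → finrank F V = n → ∀ {T : V ≃ₗ[F] V}, IsJTwo Q T →
    ∃ (k : ℕ) (B : Submodule F V), (∀ v ∈ B, T v ∈ B) ∧ Nondeg (res Q B) ∧ finrank F B = 4 * k ∧
      IsPlus (res Q B) ∧ (∀ v ∈ perp Q B, T v = v) ∧
      ∀ j ≤ k, ∃ B' ≤ B, (∀ v ∈ B', T v ∈ B') ∧ Nondeg (res Q B') ∧ finrank F B' = 4 * j ∧
        IsPlus (res Q B') := by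
  induction n using Nat.strong_induction_on with
  | _ n ih =>
  intro V _ _ _ Q hQ hn T hT
  have hbot : ∀ {V : Type v} [AddCommGroup V] [Module F V] [FiniteDimensional F V]
      {Q : QuadraticForm F V} {T : V ≃ₗ[F] V}, (∀ v ∈ (⊥ : Submodule F V), T v ∈ (⊥ : Submodule F V)) ∧
      Nondeg (res Q (⊥ : Submodule F V)) ∧ finrank F (⊥ : Submodule F V) = 4 * 0 ∧
      IsPlus (res Q (⊥ : Submodule F V)) := by
    intro V _ _ _ Q T
    refine ⟨?_, ?_, by rw [finrank_bot], isPlus_of_finrank_zero (finrank_bot F V)⟩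
    · intro w hw
      rw [Submodule.mem_bot] at hw ⊢
      rw [hw, map_zero]
    · rw [nondeg_res_iff]
      intro x hx _
      exact (Submodule.mem_bot F).1 hx
  by_cases htriv : ∀ v, T v = v
  · obtain ⟨h1, h2, h3, h4⟩ := hbot (Q := Q) (T := T)
    refine ⟨0, ⊥, h1, h2, h3, h4, fun v _ => htriv v, fun j hj => ⟨⊥, le_rfl, h1, h2, ?_, h4⟩⟩
    rw [finrank_bot]; omega
  push Not at htriv
  obtain ⟨v, hv⟩ := htriv
  obtain ⟨C, hCT, hC, hCd, hCp⟩ := hT.exists_block hQ hv
  have hPT := map_mem_perp hT.mem hCT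
  have hd := finrank_add_perp hQ C
  obtain ⟨k, B, h1, h2, h3, h4, h5, h6⟩ := ih (n - 4) (by omega) (nondeg_perp hQ hC) (by omega)
    (hT.res hPT)
  obtain ⟨e, he⟩ := exists_res_equiv (Q := Q) (perp Q C) B
  have hle := map_subtype_le_perp (Q := Q) B
  refine ⟨k + 1, C ⊔ B.map (perp Q C).subtype, inv_sup hCT (inv_map_subtype hPT h1),
    nondeg_sup hC (nondeg_of_equiv e he h2) hle, ?_, ?_, ?_, ?_⟩
  · rw [finrank_sup_perp hC hle, hCd, ← e.finrank_eq, h3]; ring
  · rw [isPlus_sup_iff hC (nondeg_of_equiv e he h2) hle (by rw [hCd]; decide)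
      (by rw [← e.finrank_eq, h3]; exact ⟨2 * k, by ring⟩), ← isPlus_iff_of_equiv e he]
    exact iff_of_true hCp h4
  · intro v hv
    have hv1 : v ∈ perp Q C := perp_anti le_sup_left hv
    have hv2 : (⟨v, hv1⟩ : perp Q C) ∈ perp (res Q (perp Q C)) B := by
      intro b hb
      have h7 : (b : V) ∈ B.map (perp Q C).subtype := ⟨b, hb, rfl⟩
      exact hv _ (Submodule.mem_sup_right h7)
    exact congrArg Subtype.val (h5 _ hv2)
  · intro j hj
    rcases Nat.eq_zero_or_pos j with rfl | hj0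
    · obtain ⟨h1, h2, h3, h4⟩ := hbot (Q := Q) (T := T)
      exact ⟨⊥, bot_le, h1, h2, h3, h4⟩
    obtain ⟨B', g0, g1, g2, g3, g4⟩ := h6 (j - 1) (by omega)
    obtain ⟨e', he'⟩ := exists_res_equiv (Q := Q) (perp Q C) B'
    have hle' := map_subtype_le_perp (Q := Q) B'
    refine ⟨C ⊔ B'.map (perp Q C).subtype, sup_le_sup_left (Submodule.map_mono g0) _,
      inv_sup hCT (inv_map_subtype hPT g1), nondeg_sup hC (nondeg_of_equiv e' he' g2) hle', ?_, ?_⟩
    · rw [finrank_sup_perp hC hle', hCd, ← e'.finrank_eq, g3]; omega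
    · rw [isPlus_sup_iff hC (nondeg_of_equiv e' he' g2) hle' (by rw [hCd]; decide)
        (by rw [← e'.finrank_eq, g3]; exact ⟨2 * (j - 1), by ring⟩), ← isPlus_iff_of_equiv e' he']
      exact iff_of_true hCp g4

end Cfsg.Agent.H958
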