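import Mathlib
import Cfsg.Agent.H958.JTwoStruct

/-!
# Invariant subspaces of isometries with `(T - 1) ^ 2 = 0`, `polar v (T v) = 0`
-/

set_option autoImplicit false

namespace Cfsg.Agent.H958

open Module QuadraticMap Cfsg.Agent.LieClassical.OrthCore Cfsg.Agent.LieClassical.OrthTrans
  Cfsg.Agent.H955 Cfsg.Agent.LieClassical.OrthFinite

universe u v w
variable {F : Type u} [Field F] [Finite F]
  {V : Type v} [AddCommGroup V] [Module F V] [FiniteDimensional F V] {Q : QuadraticForm F V}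
  {T : V ≃ₗ[F] V}

theorem exists_sub_type {P : Submodule F V} (hP : Nondeg (res Q P)) {n' t : ℕ}
    (hd : finrank F P = 2 * n') (ht : t ≤ n') (δ : Prop) (h0 : t = 0 → δ)
    (h1 : t = n' → (δ ↔ IsPlus (res Q P))) :
    ∃ X ≤ P, Nondeg (res Q X) ∧ finrank F X = 2 * t ∧ (IsPlus (res Q X) ↔ δ) := by
  rcases Nat.eq_zero_or_pos t with rfl | ht0
  · refine ⟨⊥, bot_le, ?_, by rw [finrank_bot], iff_of_true (isPlus_of_finrank_zero (finrank_bot F V))
      (h0 rfl)⟩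
    rw [nondeg_res_iff]
    intro x hx _
    exact (Submodule.mem_bot F).1 hx
  rcases Nat.eq_or_lt_of_le ht with rfl | hlt
  · exact ⟨P, le_rfl, hP, hd, (h1 rfl).symm⟩
  obtain ⟨X, hX, hXd, hXp⟩ := exists_subspace hP (by rw [hd]; exact even_two_mul _) t ht0 (by omega) δ
  obtain ⟨e, he⟩ := exists_res_equiv (Q := Q) P X
  exact ⟨X.map P.subtype, Submodule.map_subtype_le _ _, nondeg_of_equiv e he hX,
    by rw [← e.finrank_eq, hXd], by rw [← isPlus_iff_of_equiv e he, hXp]⟩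

/-- combination of blocks and a piece of the trivial part -/
theorem jtwo_combine (hQ : Nondeg Q) {d : ℕ} (hd : finrank F V = 2 * d) (hT : IsJTwo Q T) :
    ∃ k, 2 * k ≤ d ∧ (2 * k = d → IsPlus Q) ∧ ∀ j t, j ≤ k → t ≤ d - 2 * k → ∀ δ : Prop, (t = 0 → δ) →
      (t = d - 2 * k → (δ ↔ IsPlus Q)) →
      ∃ W : Submodule F V, (∀ v ∈ W, T v ∈ W) ∧ Nondeg (res Q W) ∧ finrank F W = 2 * (2 * j + t) ∧
        (IsPlus (res Q W) ↔ δ) := by
  obtain ⟨k, B, hBT, hB, hBd, hBp, hfix, hsub⟩ := jtwo_struct _ hQ rfl hT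
  have h1 := finrank_add_perp hQ B
  have h2 := isPlus_iff_perp hQ hB (by rw [hd]; exact even_two_mul d) (by rw [hBd]; exact ⟨2 * k, by ring⟩)
  have hk : 2 * k ≤ d := by omega
  refine ⟨k, hk, ?_, ?_⟩
  · intro h
    rw [h2]
    exact iff_of_true hBp (isPlus_of_finrank_zero (by omega))
  · intro j t hj ht δ h0 h3
    obtain ⟨B', hB'B, hB'T, hB', hB'd, hB'p⟩ := hsub j hj
    obtain ⟨X, hXP, hX, hXd, hXp⟩ := exists_sub_type (n' := d - 2 * k) (nondeg_perp hQ hB) (by omega) ht δ h0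
      (fun h => by
        rw [h3 h, h2]
        exact ⟨fun h => h.1 hBp, fun h => iff_of_true hBp h⟩)
    have hle : X ≤ perp Q B' := hXP.trans (perp_anti hB'B)
    refine ⟨B' ⊔ X, inv_sup hB'T (fun v hv => ?_), nondeg_sup hB' hX hle, ?_, ?_⟩
    · rw [hfix v (hXP hv)]; exact hv
    · rw [finrank_sup_perp hB' hle, hB'd, hXd]; ring
    · rw [isPlus_sup_iff hB' hX hle (by rw [hB'd]; exact ⟨2 * j, by ring⟩)
        (by rw [hXd]; exact even_two_mul t), hXp]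
      exact ⟨fun h => h.1 hB'p, fun h => iff_of_true hB'p h⟩

theorem jtwo_plus (hQ : Nondeg Q) {d : ℕ} (hd : finrank F V = 2 * d) (hT : IsJTwo Q T) (hp : IsPlus Q)
    {s : ℕ} (hs : s < d) (h : Odd d ∨ Even s) :
    ∃ W : Submodule F V, (∀ v ∈ W, T v ∈ W) ∧ Nondeg (res Q W) ∧ finrank F W = 2 * s ∧
        (IsPlus (res Q W) ↔ True) := by
  obtain ⟨k, hk, -, hW⟩ := jtwo_combine hQ hd hT
  have key : ∃ j t, j ≤ k ∧ t ≤ d - 2 * k ∧ s = 2 * j + t := by
    rcases Nat.lt_or_ge k (s / 2) with h1 | h1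
    · exact ⟨k, s - 2 * k, le_rfl, by omega, by omega⟩
    · refine ⟨s / 2, s % 2, h1, ?_, by omega⟩
      rcases h with ⟨e, he⟩ | ⟨e, he⟩ <;> omega
  obtain ⟨j, t, hj, ht, rfl⟩ := key
  exact hW j t hj ht True (fun _ => trivial) (fun _ => iff_of_true trivial hp)

theorem jtwo_minus (hQ : Nondeg Q) {d : ℕ} (hd : finrank F V = 2 * d) (hT : IsJTwo Q T) (hp : ¬ IsPlus Q)
    {s : ℕ} (hs0 : 0 < s) (hs : s < d) (h : Even d ∨ Odd s) :
    ∃ W : Submodule F V, (∀ v ∈ W, T v ∈ W) ∧ Nondeg (res Q W) ∧ finrank F W = 2 * s ∧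
        (IsPlus (res Q W) ↔ False) := by
  obtain ⟨k, hk, hk', hW⟩ := jtwo_combine hQ hd hT
  have hk2 : 2 * k ≠ d := fun h => hp (hk' h)
  have key : ∃ j t, j ≤ k ∧ t ≤ d - 2 * k ∧ 0 < t ∧ s = 2 * j + t := by
    rcases Nat.lt_or_ge (2 * k) s with h1 | h1
    · exact ⟨k, s - 2 * k, le_rfl, by omega, by omega, by omega⟩
    · rcases Nat.even_or_odd s with ⟨e, he⟩ | ⟨e, he⟩
      · refine ⟨e - 1, 2, by omega, ?_, by omega, by omega⟩
        rcases h with ⟨e', he'⟩ | ⟨e', he'⟩ <;> omega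
      · exact ⟨e, 1, by omega, by omega, by omega, by omega⟩
  obtain ⟨j, t, hj, ht, ht0, rfl⟩ := key
  exact hW j t hj ht False (fun h => absurd h (by omega)) (fun _ => iff_of_false id hp)

end Cfsg.Agent.H958
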