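import Mathlib
import Cfsg.Agent.H958.ArithFin

/-!
# Numerical forms of the criterion
-/

set_option autoImplicit false

namespace Cfsg.Agent.H958

variable {c n m : ℕ} {A B C E : Prop}

/-- splitting the criterion according to the residues -/
theorem crit_cases {k l : ℕ} {AV AW AP : Prop} :
    ((k = 0 ∧ l = 0 ∧ (AW ∨ AP)) ∨ (k = 0 ∧ 0 < l ∧ ¬ AV) ∨
    (0 < k ∧ l = 0 ∧ AW) ∨ (0 < l ∧ l < k) ∨ (0 < k ∧ l = k ∧ AP)) ↔
    ((k = 0 → l = 0 → AW ∨ AP) ∧ (k = 0 → 0 < l → ¬ AV) ∧ (0 < k → l = 0 → AW) ∧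
      (0 < k → 0 < l → l = k → AP) ∧ ¬ (0 < k ∧ k < l)) := by
  rcases Nat.eq_zero_or_pos k with h1 | h1
  · rcases Nat.eq_zero_or_pos l with h2 | h2
    · simp [h1, h2]
    · have h3 : l ≠ 0 := by omega
      simp [h1, h2, h3]
  · have h1' : k ≠ 0 := by omega
    rcases Nat.eq_zero_or_pos l with h2 | h2
    · have h3 : (0 : ℕ) ≠ k := by omega
      simp [h1, h1', h2, h3]
    · have h3 : l ≠ 0 := by omega
      rcases lt_trichotomy l k with h4 | h4 | h4
      · have h5 : l ≠ k := by omega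
        have h6 : ¬ k < l := by omega
        simp [h1, h1', h2, h3, h4, h5, h6]
      · subst h4
        simp [h1, h1']
      · have h5 : l ≠ k := by omega
        have h6 : ¬ l < k := by omega
        simp [h1, h1', h2, h3, h4, h5, h6]

/-- plus, plus -/
theorem num_pp_odd (hcm : Crit c n m True True True → c ≤ m) :
    Crit c n m True True True ↔ c ≤ m ∧ m % c ≤ n % c := by
  constructor
  · intro h
    refine ⟨hcm h, ?_⟩
    rcases h with ⟨h, h', -⟩ | ⟨-, -, h⟩ | ⟨h, h', -⟩ | ⟨h, h'⟩ | ⟨h, h', -⟩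
    · omega
    · exact absurd trivial h
    · omega
    · omega
    · omega
  · rintro ⟨-, h⟩
    unfold Crit
    rcases Nat.eq_zero_or_pos (n % c) with h1 | h1
    · exact Or.inl ⟨h1, by omega, Or.inl trivial⟩
    · rcases Nat.eq_zero_or_pos (m % c) with h2 | h2
      · exact Or.inr (Or.inr (Or.inl ⟨h1, h2, trivial⟩))
      · rcases Nat.eq_or_lt_of_le h with h3 | h3
        · exact Or.inr (Or.inr (Or.inr (Or.inr ⟨h1, h3, trivial⟩)))
        · exact Or.inr (Or.inr (Or.inr (Or.inl ⟨h2, h3⟩)))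

theorem num_pp_even (hc : 0 < c) (hmn : m < n)
    (hcm : Crit c n m (Even (n / c)) (Even (m / c)) (Even ((n - m) / c)) → c ≤ m) :
    Crit c n m (Even (n / c)) (Even (m / c)) (Even ((n - m) / c)) ↔
      ((n % c = 0 ∧ (Odd (n / c) ∨ (m % c = 0 ∧ Even (m / c)))) ∨
        (c ≤ m ∧ ((m % c < n % c ∧ 0 < m % c) ∨
                  (n % c = m % c ∧ 0 < m % c ∧ Even ((n + m - 2 * (n % c)) / c)) ∨
                  (0 < n % c ∧ m % c = 0 ∧ Even (m / c))))) := by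
  have h1 : m % c = n % c → (Even ((n - m) / c) ↔ (Even (n / c) ↔ Even (m / c))) := fun h =>
    even_div_sub hc h hmn.le
  have h2 : m % c = n % c → (Even ((n + m - 2 * (n % c)) / c) ↔ (Even (n / c) ↔ Even (m / c))) :=
    fun h => even_div_add hc h
  rw [← Nat.not_even_iff_odd]
  generalize Even (n / c) = EN at *
  generalize Even (m / c) = EM at *
  generalize Even ((n - m) / c) = E1 at *
  generalize Even ((n + m - 2 * (n % c)) / c) = E2 at *
  constructor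
  · intro h
    have h3 := hcm h
    rcases h with ⟨h, h', h''⟩ | ⟨h, h', h''⟩ | ⟨h, h', h''⟩ | ⟨h, h'⟩ | ⟨h, h', h''⟩
    · left
      refine ⟨h, ?_⟩
      have := h1 (by omega)
      tauto
    · exact Or.inl ⟨h, Or.inl h''⟩
    · exact Or.inr ⟨h3, Or.inr (Or.inr ⟨h, h', h''⟩)⟩
    · exact Or.inr ⟨h3, Or.inl ⟨h', h⟩⟩
    · refine Or.inr ⟨h3, Or.inr (Or.inl ⟨h'.symm, by omega, ?_⟩)⟩
      rw [h2 h', ← h1 h']; exact h''
  · rintro (⟨h, h'⟩ | ⟨-, ⟨h, h'⟩ | ⟨h, h', h''⟩ | ⟨h, h', h''⟩⟩)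
    · rcases Nat.eq_zero_or_pos (m % c) with h0 | h0
      · left
        refine ⟨h, h0, ?_⟩
        have := h1 (by omega)
        tauto
      · refine Or.inr (Or.inl ⟨h, h0, ?_⟩)
        rcases h' with h' | ⟨h', -⟩
        · exact h'
        · omega
    · exact Or.inr (Or.inr (Or.inr (Or.inl ⟨h', h⟩)))
    · refine Or.inr (Or.inr (Or.inr (Or.inr ⟨by omega, h.symm, ?_⟩)))
      rw [h1 h.symm, ← h2 h.symm]; exact h''
    · exact Or.inr (Or.inr (Or.inl ⟨h, h', h''⟩))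

/-- plus, minus -/
theorem num_pm_odd (hcm : Crit c n m True False False → c ≤ m) :
    Crit c n m True False False ↔ c ≤ m ∧ 0 < m % c ∧ m % c < n % c := by
  constructor
  · intro h
    refine ⟨hcm h, ?_⟩
    rcases h with ⟨h, h', h'' | h''⟩ | ⟨-, -, h⟩ | ⟨h, h', h''⟩ | ⟨h, h'⟩ | ⟨h, h', h''⟩
    · exact h''.elim
    · exact h''.elim
    · exact absurd trivial h
    · exact h''.elim
    · exact ⟨h, h'⟩
    · exact h''.elim
  · rintro ⟨-, h⟩
    exact Or.inr (Or.inr (Or.inr (Or.inl h)))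

theorem num_pm_even (hc : 0 < c) (hmn : m < n)
    (hcm : Crit c n m (Even (n / c)) (¬ Even (m / c)) (¬ Even ((n - m) / c)) → c ≤ m) :
    Crit c n m (Even (n / c)) (¬ Even (m / c)) (¬ Even ((n - m) / c)) ↔
       ((n % c = 0 ∧ (Odd (n / c) ∨ (m % c = 0 ∧ Odd (m / c)))) ∨
        (c ≤ m ∧ ((0 < m % c ∧ m % c < n % c) ∨
                  (0 < m % c ∧ m % c = n % c ∧ Odd ((n + m - 2 * (n % c)) / c)) ∨
                  (m % c = 0 ∧ 0 < n % c ∧ Odd (m / c))))) := by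
  have h1 : m % c = n % c → (Even ((n - m) / c) ↔ (Even (n / c) ↔ Even (m / c))) := fun h =>
    even_div_sub hc h hmn.le
  have h2 : m % c = n % c → (Even ((n + m - 2 * (n % c)) / c) ↔ (Even (n / c) ↔ Even (m / c))) :=
    fun h => even_div_add hc h
  rw [← Nat.not_even_iff_odd, ← Nat.not_even_iff_odd, ← Nat.not_even_iff_odd]
  generalize Even (n / c) = EN at *
  generalize Even (m / c) = EM at *
  generalize Even ((n - m) / c) = E1 at *
  generalize Even ((n + m - 2 * (n % c)) / c) = E2 at *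
  constructor
  · intro h
    have h3 := hcm h
    rcases h with ⟨h, h', h''⟩ | ⟨h, h', h''⟩ | ⟨h, h', h''⟩ | ⟨h, h'⟩ | ⟨h, h', h''⟩
    · left
      refine ⟨h, ?_⟩
      have := h1 (by omega)
      tauto
    · exact Or.inl ⟨h, Or.inl h''⟩
    · exact Or.inr ⟨h3, Or.inr (Or.inr ⟨h', h, h''⟩)⟩
    · exact Or.inr ⟨h3, Or.inl ⟨h, h'⟩⟩
    · refine Or.inr ⟨h3, Or.inr (Or.inl ⟨by omega, h', ?_⟩)⟩
      rw [h2 h', ← h1 h']; exact h''
  · rintro (⟨h, h'⟩ | ⟨-, ⟨h, h'⟩ | ⟨h, h', h''⟩ | ⟨h, h', h''⟩⟩)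
    · rcases Nat.eq_zero_or_pos (m % c) with h0 | h0
      · left
        refine ⟨h, h0, ?_⟩
        have := h1 (by omega)
        tauto
      · refine Or.inr (Or.inl ⟨h, h0, ?_⟩)
        rcases h' with h' | ⟨h', -⟩
        · exact h'
        · omega
    · exact Or.inr (Or.inr (Or.inr (Or.inl ⟨h, h'⟩)))
    · refine Or.inr (Or.inr (Or.inr (Or.inr ⟨by omega, h', ?_⟩)))
      rw [h1 h', ← h2 h']; exact h''
    · exact Or.inr (Or.inr (Or.inl ⟨h', h, h''⟩))

/-- minus, minus -/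
theorem num_mm_odd (hcm : Crit c n m False False True → c ≤ m) :
    Crit c n m False False True ↔ (n % c = 0 ∨ (c ≤ m ∧ 0 < m % c ∧ m % c ≤ n % c)) := by
  constructor
  · intro h
    have h3 := hcm h
    rcases h with ⟨h, -, -⟩ | ⟨h, -, -⟩ | ⟨-, -, h⟩ | ⟨h, h'⟩ | ⟨h, h', -⟩
    · exact Or.inl h
    · exact Or.inl h
    · exact h.elim
    · exact Or.inr ⟨h3, h, h'.le⟩
    · exact Or.inr ⟨h3, by omega, by omega⟩
  · rintro (h | ⟨-, h, h'⟩)
    · rcases Nat.eq_zero_or_pos (m % c) with h0 | h0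
      · exact Or.inl ⟨h, h0, Or.inr trivial⟩
      · exact Or.inr (Or.inl ⟨h, h0, not_false⟩)
    · rcases Nat.eq_or_lt_of_le h' with h1 | h1
      · exact Or.inr (Or.inr (Or.inr (Or.inr ⟨by omega, h1, trivial⟩)))
      · exact Or.inr (Or.inr (Or.inr (Or.inl ⟨h, h1⟩)))

theorem num_mm_even (hc : 0 < c) (hmn : m < n)
    (hcm : Crit c n m (¬ Even (n / c)) (¬ Even (m / c)) (Even ((n - m) / c)) → c ≤ m) :
    Crit c n m (¬ Even (n / c)) (¬ Even (m / c)) (Even ((n - m) / c)) ↔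
       ((n % c = 0 ∧ (Even (n / c) ∨ (m % c = 0 ∧ Odd (m / c)))) ∨
        (0 < n % c ∧ c ≤ m ∧ ((0 < m % c ∧ m % c < n % c) ∨ (m % c = 0 ∧ Odd (m / c)) ∨
                             (m % c = n % c ∧ Even ((n + m - 2 * (n % c)) / c))))) := by
  have h1 : m % c = n % c → (Even ((n - m) / c) ↔ (Even (n / c) ↔ Even (m / c))) := fun h =>
    even_div_sub hc h hmn.le
  have h2 : m % c = n % c → (Even ((n + m - 2 * (n % c)) / c) ↔ (Even (n / c) ↔ Even (m / c))) :=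
    fun h => even_div_add hc h
  rw [← Nat.not_even_iff_odd]
  generalize Even (n / c) = EN at *
  generalize Even (m / c) = EM at *
  generalize Even ((n - m) / c) = E1 at *
  generalize Even ((n + m - 2 * (n % c)) / c) = E2 at *
  constructor
  · intro h
    have h3 := hcm h
    rcases h with ⟨h, h', h''⟩ | ⟨h, h', h''⟩ | ⟨h, h', h''⟩ | ⟨h, h'⟩ | ⟨h, h', h''⟩
    · left
      refine ⟨h, ?_⟩
      have := h1 (by omega)
      tauto
    · exact Or.inl ⟨h, Or.inl (not_not.1 h'')⟩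
    · exact Or.inr ⟨h, h3, Or.inr (Or.inl ⟨h', h''⟩)⟩
    · exact Or.inr ⟨by omega, h3, Or.inl ⟨h, h'⟩⟩
    · refine Or.inr ⟨h, h3, Or.inr (Or.inr ⟨h', ?_⟩)⟩
      rw [h2 h', ← h1 h']; exact h''
  · rintro (⟨h, h'⟩ | ⟨h0, -, ⟨h, h'⟩ | ⟨h, h'⟩ | ⟨h, h'⟩⟩)
    · rcases Nat.eq_zero_or_pos (m % c) with h0 | h0
      · left
        refine ⟨h, h0, ?_⟩
        have := h1 (by omega)
        tauto
      · refine Or.inr (Or.inl ⟨h, h0, ?_⟩)
        rcases h' with h' | ⟨h', -⟩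
        · exact not_not.2 h'
        · omega
    · exact Or.inr (Or.inr (Or.inr (Or.inl ⟨h, h'⟩)))
    · exact Or.inr (Or.inr (Or.inl ⟨h0, h, h'⟩))
    · refine Or.inr (Or.inr (Or.inr (Or.inr ⟨h0, h, ?_⟩)))
      rw [h1 h, ← h2 h]; exact h'

end Cfsg.Agent.H958
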