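import Mathlib
import Cfsg.Prelude.Def_GeometricClasses
import Cfsg.Agent.H958.Glue
import Cfsg.Agent.LieClassical.OrthForms

set_option autoImplicit false
open scoped MatrixGroups
open Cfsg

namespace Cfsg.Agent.H958

open Cfsg.Agent.H955 Cfsg.Agent.LieClassical.OrthCore Cfsg.Agent.LieClassical.OrthTrans
  Cfsg.Agent.LieClassical.OrthFinite Cfsg.Agent.LieClassical.OrthForms

/-- Elements of prime order of Ω_n(q), nq odd, with no fixed elliptic `m`-space. Here `T = Ω_n(F)`, `n = 2d+1 ≥ 7`, `q` odd, realised as the commutator subgroup of the isometry group of `Q = x₀² + Σ xᵢyᵢ` over the field `F` with `q` elements (trivial centre, so its elements of prime order `r` are used directly); a nondegenerate `m`-space (even `m`) is a subspace on which the polar form of `Q` is nondegenerate; it is hyperbolic if it contains an `m/2`-dimensional subspace on which `Q` vanishes, elliptic otherwise. Let `m` be even with `2 ≤ m ≤ n − 1` (no restriction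 `m < n/2`) and let `r` be a prime dividing the number of elliptic `m`-spaces; for `r ≠ p` let `i` be the multiplicative order of `q` modulo `r`, `c = i` for `i` even and `c = 2i` for `i` odd, and write `k = n mod c`, `ℓ' = m mod c`. Then every element of `T` of order `r` fixes some elliptic `m`-space if and only if `r = 2`, or `r ≠ p` is odd and one of: (i) `i` odd, `c ≤ m` and `k > ℓ' > 0`; (ii) `i` even, `i ≤ m`, `k > ℓ'`, and `m/i` odd whenever `ℓ' = 0`. (For `r = p` there is always an element of order `p` fixing no elliptic `m`-space.) -/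
theorem s5993_of_eq {F : Type*} [Field F] [Fintype F] {p : ℕ} [Fact p.Prime] [CharP F p] {q : ℕ} (hq : Fintype.card F = q) (hqodd : Odd q)
    (d m : ℕ) (hd : 3 ≤ d) (hm : 2 ≤ m) (hme : Even m) (hmn : m ≤ 2 * d)
    (r : ℕ) [Fact r.Prime]
    (hrΩ : r ∣ Nat.card {W : Submodule F (Unit ⊕ (Fin d ⊕ Fin d) → F) // Module.finrank F ↥W = m ∧ Cfsg.Geo.IsNondegenerateOn (QuadraticMap.polar (Cfsg.quadFormOdd d F)) W ∧ ¬ Cfsg.Geo.IsPlusTypeOn (Cfsg.quadFormOdd d F) W})
    (i c : ℕ) (hi : i = orderOf (q : ZMod r)) (hc : c = if Even i then i else 2 * i)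
    (hrp : r = p → r ≠ 2 → ¬ (∀ x : GL (Unit ⊕ (Fin d ⊕ Fin d)) F, x ∈ Cfsg.Geo.omegaGL (Cfsg.quadFormOdd d F) → orderOf x = r →
      ∃ W : Submodule F (Unit ⊕ (Fin d ⊕ Fin d) → F), (Module.finrank F ↥W = m ∧ Cfsg.Geo.IsNondegenerateOn (QuadraticMap.polar (Cfsg.quadFormOdd d F)) W ∧ ¬ Cfsg.Geo.IsPlusTypeOn (Cfsg.quadFormOdd d F) W) ∧ W.map (Matrix.toLin' (x : Matrix (Unit ⊕ (Fin d ⊕ Fin d)) (Unit ⊕ (Fin d ⊕ Fin d)) F)) ≤ W)) :
    (∀ x : GL (Unit ⊕ (Fin d ⊕ Fin d)) F, x ∈ Cfsg.Geo.omegaGL (Cfsg.quadFormOdd d F) → orderOf x = r →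
      ∃ W : Submodule F (Unit ⊕ (Fin d ⊕ Fin d) → F), (Module.finrank F ↥W = m ∧ Cfsg.Geo.IsNondegenerateOn (QuadraticMap.polar (Cfsg.quadFormOdd d F)) W ∧ ¬ Cfsg.Geo.IsPlusTypeOn (Cfsg.quadFormOdd d F) W) ∧ W.map (Matrix.toLin' (x : Matrix (Unit ⊕ (Fin d ⊕ Fin d)) (Unit ⊕ (Fin d ⊕ Fin d)) F)) ≤ W) ↔
    (r = 2 ∨
     (r ≠ p ∧ 2 < r ∧ Odd i ∧ c ≤ m ∧ 0 < m % c ∧ m % c < (2 * d + 1) % c) ∨
     (r ≠ p ∧ 2 < r ∧ Even i ∧ i ≤ m ∧ m % c < (2 * d + 1) % c ∧ (0 < m % c ∨ Odd (m / i)))) := by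
  have h2 : (2 : F) ≠ 0 := two_ne_zero_of_odd hq hqodd
  rw [← coe_oddForm] at hrΩ hrp ⊢
  have hQ : Nondeg (oddForm d F) := nondeg_oddForm d F h2
  set Q := oddForm d F with hQdef
  have hdim : Module.finrank F (Unit ⊕ (Fin d ⊕ Fin d) → F) = 2 * d + 1 := by
    rw [Module.finrank_fintype_fun_eq_card]
    simp
    ring
  have hG : Good Q := good_of_finite hQ (by rw [hdim]; omega)
  obtain ⟨m', rfl⟩ : ∃ m', m = 2 * m' := ⟨m / 2, by obtain ⟨k, hk⟩ := hme; omega⟩
  -- a member of the class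
  obtain ⟨W, hWn, hWd, hWp⟩ : ∃ W : Submodule F (Unit ⊕ (Fin d ⊕ Fin d) → F),
      Nondeg (res Q W) ∧ Module.finrank F W = 2 * m' ∧ ¬ IsPlus (res Q W) := by
    obtain ⟨X, _, _, _, R, hR, hRd, hRp⟩ := exists_model (F := F) m' (by omega) False
    obtain ⟨f, hf, hfQ⟩ := exists_embedding_odd h2 _ hR hRd hQ (by omega)
    obtain ⟨h1, h3, h4⟩ := range_props hR hf hfQ
    exact ⟨_, h1, by rw [h3, hRd], by rw [h4, hRp]; exact not_false⟩
  have hWe : Even (Module.finrank F W) := by rw [hWd]; exact even_two_mul _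
  simp only [nondegOn_iff, plusOn_iff] at hrΩ hrp ⊢
  have hC : ∀ W' : Submodule F (Unit ⊕ (Fin d ⊕ Fin d) → F), (Module.finrank F W' = 2 * m' ∧ Nondeg (res Q W') ∧ ¬ IsPlus (res Q W')) ↔
      ∃ g ∈ O Q, W.map (g : (Unit ⊕ (Fin d ⊕ Fin d) → F) →ₗ[F] _) = W' := by
    intro W'
    rw [← class_even hQ hWn hWe, hWd]
    refine and_congr_right fun _ => and_congr_right fun _ => ?_
    exact ⟨fun h => iff_of_false h hWp, fun h h' => hWp (h.1 h')⟩
  by_cases hr2 : r = 2
  · refine iff_of_true ?_ (Or.inl hr2)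
    intro x hx hxr
    have hxO : glEquiv _ F x ∈ O Q := E_le_O ((mem_omegaGL_iff hG x).1 hx)
    have hx2 : x ^ 2 = 1 := by rw [← hr2, ← hxr]; exact pow_orderOf_eq_one x
    obtain ⟨g, hg, h⟩ := invol_fix h2 hQ (by omega) hxO (by rw [← map_pow, hx2, map_one]) (by
      intro h
      have hx1 : x = 1 := (glEquiv _ F).injective (by rw [h, map_one])
      rw [hx1, orderOf_one] at hxr
      omega) (by
      intro h
      refine not_neg_of_omegaGL (by simp) h2 hx ?_
      rw [scalar_iff]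
      intro v
      rw [h, neg_smul, one_smul]) hWn (by omega) (by omega)
    exact ⟨_, (hC _).2 ⟨g, hg, rfl⟩, by rw [map_le_iff]; exact h⟩
  · have hr3 : 2 < r := lt_of_le_of_ne (Fact.out : r.Prime).two_le (Ne.symm hr2)
    have hrodd : Odd r := (Fact.out : r.Prime).odd_of_ne_two hr2
    by_cases hrp' : r = p
    · refine iff_of_false (hrp hrp' hr2) ?_
      rintro (h | ⟨h, -⟩ | ⟨h, -⟩)
      · exact hr2 h
      · exact h hrp'
      · exact h hrp'
    clear hrp
    have hrF : (r : F) ≠ 0 := cast_ne_zero hrp'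
    obtain ⟨hm1, hm2⟩ := main hr3 hrF hQ hWn (by omega) (by omega) (Or.inr h2) _ hC hrΩ
    have hm1' := (transfer_orderOf hG (r := r) hrodd _).trans hm1
    refine hm1'.trans ?_
    have hbk := bk_eq' hq hi hc
    have hAW : AA Q r W ↔ ¬ dl F r (2 * m' / c) := by
      rw [AA, hWd, hbk]
      exact ⟨fun h h' => hWp (h.2 h'), fun h => iff_of_false hWp h⟩
    rw [hbk, hdim, hWd] at hm2 ⊢
    have hc0 : 0 < c := by rw [← hbk]; exact bk_pos hrF
    have hce : Even c := by rw [← hbk]; exact bk_even F r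
    obtain ⟨c', hc'⟩ := hce
    have hn1 : (2 * d + 1) % c % 2 = 1 := by
      rw [Nat.mod_mod_of_dvd _ (by rw [hc']; exact ⟨c', by ring⟩)]; omega
    have hm3 : (2 * m') % c % 2 = 0 := by
      rw [Nat.mod_mod_of_dvd _ (by rw [hc']; exact ⟨c', by ring⟩)]; omega
    constructor
    · intro hcr
      obtain ⟨hcm, -⟩ := hm2 hcr
      rcases Nat.even_or_odd i with hie | hio
      · right; right
        have hci : c = i := by rw [hc, if_pos hie]
        refine ⟨hrp', hr3, hie, by omega, ?_⟩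
        rcases hcr with ⟨h, -, -⟩ | ⟨h, -, -⟩ | ⟨h, h', h''⟩ | ⟨h, h'⟩ | ⟨h, h', -⟩
        · omega
        · omega
        · refine ⟨by omega, Or.inr ?_⟩
          rw [← hci]
          have h3 := hAW.1 h''
          rw [dl_even hq hi hie, Nat.not_even_iff_odd] at h3
          exact h3
        · exact ⟨h', Or.inl h⟩
        · omega
      · right; left
        refine ⟨hrp', hr3, hio, hcm, ?_⟩
        rcases hcr with ⟨h, -, -⟩ | ⟨h, -, -⟩ | ⟨h, h', h''⟩ | ⟨h, h'⟩ | ⟨h, h', -⟩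
        · omega
        · omega
        · exact absurd (dl_odd hq hi hio _) (hAW.1 h'')
        · exact ⟨h, h'⟩
        · omega
    · rintro (h | ⟨-, -, hio, -, h, h'⟩ | ⟨-, -, hie, -, h, h'⟩)
      · exact absurd h hr2
      · exact Or.inr (Or.inr (Or.inr (Or.inl ⟨h, h'⟩)))
      · have hci : c = i := by rw [hc, if_pos hie]
        rcases Nat.eq_zero_or_pos ((2 * m') % c) with h0 | h0
        · refine Or.inr (Or.inr (Or.inl ⟨by omega, h0, hAW.2 ?_⟩))
          rw [dl_even hq hi hie, Nat.not_even_iff_odd, hci]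
          rcases h' with h' | h'
          · omega
          · exact h'
        · exact Or.inr (Or.inr (Or.inr (Or.inl ⟨h0, h⟩)))

end Cfsg.Agent.H958
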