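import Mathlib
import Cfsg.Agent.H958.FourExists

/-!
# The criterion for `r = 2` in odd characteristic, even dimension
-/

set_option autoImplicit false

namespace Cfsg.Agent.H958

open Module QuadraticMap Cfsg.Agent.LieClassical.OrthCore Cfsg.Agent.LieClassical.OrthTrans
  Cfsg.Agent.H955 Cfsg.Agent.LieClassical.OrthFinite
open scoped MatrixGroups Matrix

universe u v
variable {F : Type u} [Field F]

theorem isSquare_two_of_mod [Finite F] (h : Nat.card F % 8 = 1 ∨ Nat.card F % 8 = 7) : IsSquare (2 : F) := by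
  have := Fintype.ofFinite F
  rw [FiniteField.isSquare_two_iff, ← Nat.card_eq_fintype_card]
  omega

theorem two_main [Finite F] {V : Type v} [AddCommGroup V] [Module F V] [FiniteDimensional F V]
    {Q : QuadraticForm F V} (h2 : (2 : F) ≠ 0) (hG : Good Q) {d m : ℕ} (hd : finrank F V = 2 * d)
    {W₀ : Submodule F V} (hW₀ : Nondeg (res Q W₀)) (hm : finrank F W₀ = m) (hm0 : 0 < m)
    (hmn : m < 2 * d) :
    (∀ T ∈ E Q, ((∀ v, T (T v) = v) ∨ (∀ v, T (T v) = -v)) → (∀ z : F, ¬ ∀ v, T v = z • v) →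
      ∃ g ∈ O Q, ∀ v ∈ W₀.map (g : V →ₗ[F] V), T v ∈ W₀.map (g : V →ₗ[F] V)) ↔
    (¬ ((IsPlus Q ↔ (IsSquare (-1 : F) ∨ Even d)) ∧ (Even d ∨ IsSquare (2 : F)))) ∨
      (Even m ∧ (IsPlus (res Q W₀) ↔ (IsSquare (-1 : F) ∨ Even (m / 2)))) := by
  have hQ := hG.nondeg
  have hns : ∀ T ∈ O Q, (∀ v, T (T v) = -v) → ∀ z : F, ¬ ∀ v, T v = z • v := by
    intro T hT hTT z hz
    obtain ⟨v, hv⟩ := exists_Q_ne_zero hG
    have h1 := sq_eq_one_of_scalar hG hT hz
    have h3 := hTT v
    rw [hz, hz, smul_smul, h1, one_smul] at h3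
    have h4 : (2 : F) • v = 0 := by
      rw [two_smul]
      nth_rewrite 1 [h3]
      exact neg_add_cancel _
    have h5 := (smul_eq_zero.1 h4).resolve_left h2
    rw [h5, map_zero] at hv
    exact hv rfl
  constructor
  · intro h
    by_contra hcon
    push Not at hcon
    obtain ⟨⟨h1, h3⟩, h4⟩ := hcon
    obtain ⟨T, hT, hTT⟩ := exists_four h2 hG hd h1 h3
    have hTO := E_le_O hT
    obtain ⟨g, hg, hgT⟩ := h T hT (Or.inr hTT) (hns T hTO hTT)
    obtain ⟨h5, -, h6⟩ := four_struct h2 m (nondeg_map hg hW₀) (by rw [finrank_map', hm])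
      (resT_mem hTO hgT) (fun w => Subtype.ext (hTT w))
    rw [isPlus_map hg] at h6
    rcases h4 h5 with ⟨a, b⟩ | ⟨a, b⟩
    · exact not_or.2 b (h6.1 a)
    · exact a (h6.2 b)
  · intro h T hT hTT hsc
    have hTO := E_le_O hT
    rcases hTT with hTT | hTT
    · refine invol_fix h2 hQ (by have := hG.dim; omega) hTO ?_ ?_ ?_ hW₀ (by omega) (by omega)
      · ext v
        rw [pow_two]
        exact hTT v
      · rintro rfl
        exact hsc 1 fun v => (one_smul F v).symm
      · intro h1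
        exact hsc (-1) fun v => by rw [h1, neg_smul, one_smul]
    · obtain ⟨-, h3, h4⟩ := four_struct h2 _ hQ hd hTO hTT
      rw [Nat.mul_div_cancel_left _ (by norm_num)] at h4
      have h5 : Even d ∨ IsSquare (2 : F) := by
        rcases Nat.even_or_odd d with he | ho
        · exact Or.inl he
        · right
          obtain ⟨h6, h7⟩ := mod_eight_of_sq h2 hG hd ho hT hTT
          apply isSquare_two_of_mod
          by_cases hp : IsPlus Q
          · exact Or.inl (h6 hp)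
          · exact Or.inr (h7 hp)
      obtain ⟨hme, hmp⟩ := h.resolve_left (not_not.2 ⟨h4, h5⟩)
      obtain ⟨k, hk⟩ := hme
      obtain ⟨W, hWT, hW, hWd⟩ := h3 k (by omega)
      obtain ⟨-, -, h6⟩ := four_struct h2 _ hW rfl (resT_mem hTO hWT) (fun w => Subtype.ext (hTT w))
      have hdd : finrank F W = finrank F W₀ := by omega
      rw [hdd, hm] at h6
      obtain ⟨g, hg, rfl⟩ := (class_even hQ hW₀ (by rw [hm]; exact ⟨k, hk⟩) W).1
        ⟨hdd, hW, by rw [h6, hmp]⟩
      exact ⟨g, hg, hWT⟩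

/-- Transfer for `r = 2`. -/
theorem transfer_two {ι : Type} [Fintype ι] [DecidableEq ι] {Q : QuadraticForm F (ι → F)} [Finite F]
    (hG : Good Q) {W₀ : Submodule F (ι → F)}
    (C : Submodule F (ι → F) → Prop)
    (hC : ∀ W', C W' ↔ ∃ g ∈ O Q, W₀.map (g : (ι → F) →ₗ[F] (ι → F)) = W') :
    (∀ x : GL ι F, x ∈ Cfsg.Geo.omegaGL ⇑Q →
      (∃ z : F, ((x ^ 2 : GL ι F) : Matrix ι ι F) = z • (1 : Matrix ι ι F)) →
      (∀ z : F, (x : Matrix ι ι F) ≠ z • (1 : Matrix ι ι F)) →
      ∃ W : Submodule F (ι → F), C W ∧ W.map (Matrix.toLin' (x : Matrix ι ι F)) ≤ W) ↔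
    (∀ T ∈ E Q, ((∀ v, T (T v) = v) ∨ (∀ v, T (T v) = -v)) → (∀ z : F, ¬ ∀ v, T v = z • v) →
      ∃ g ∈ O Q, ∀ v ∈ W₀.map (g : (ι → F) →ₗ[F] (ι → F)), T v ∈ W₀.map (g : (ι → F) →ₗ[F] (ι → F))) := by
  constructor
  · intro h T hT hTT hns
    set x := (glEquiv ι F).symm T with hx
    have hxT : glEquiv ι F x = T := MulEquiv.apply_symm_apply _ _
    obtain ⟨W, hCW, hW⟩ := h x ((mem_omegaGL_iff hG x).2 (by rw [hxT]; exact hT)) (by
      rcases hTT with hTT | hTT
      · refine ⟨1, ?_⟩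
        rw [scalar_iff]
        intro v
        rw [map_pow, hxT, one_smul, pow_two]
        exact hTT v
      · refine ⟨-1, ?_⟩
        rw [scalar_iff]
        intro v
        rw [map_pow, hxT, neg_smul, one_smul, pow_two]
        exact hTT v) (by
      intro z hz
      rw [scalar_iff, hxT] at hz
      exact hns z hz)
    obtain ⟨g, hg, rfl⟩ := (hC W).1 hCW
    exact ⟨g, hg, by rw [map_le_iff, hxT] at hW; exact hW⟩
  · rintro h x hx ⟨z, hz⟩ hx1
    have hxE := (mem_omegaGL_iff hG x).1 hx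
    have hxO := E_le_O hxE
    rw [scalar_iff, map_pow] at hz
    have hzz := sq_eq_one_of_scalar hG ((O Q).pow_mem hxO 2) hz
    have hz' : ∀ v, glEquiv ι F x (glEquiv ι F x v) = z • v := by
      intro v
      have := hz v
      rwa [pow_two] at this
    obtain ⟨g, hg, hgW⟩ := h _ hxE (by
      rcases mul_self_eq_one_iff.1 hzz with h1 | h1
      · left
        intro v
        rw [hz', h1, one_smul]
      · right
        intro v
        rw [hz', h1, neg_smul, one_smul]) (by
      intro z hz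
      exact hx1 z (scalar_iff.2 hz))
    exact ⟨_, (hC _).2 ⟨g, hg, rfl⟩, by rw [map_le_iff]; exact hgW⟩

end Cfsg.Agent.H958
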