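import Mathlib
import Cfsg.Agent.H958.JTwo
import Cfsg.Agent.H958.EvenN
import Cfsg.Agent.H958.TwoOdd
import Cfsg.Agent.H958.NumEven

/-!
# Negative results for elements of order `p`
-/

set_option autoImplicit false

namespace Cfsg.Agent.H958

open Module QuadraticMap Cfsg.Agent.LieClassical.OrthCore Cfsg.Agent.LieClassical.OrthTrans
  Cfsg.Agent.H955 Cfsg.Agent.LieClassical.OrthFinite
open scoped MatrixGroups Matrix

universe u v
variable {F : Type u} [Field F]

/-- a counterexample disproves the left hand side. -/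
theorem not_of_elt {ι : Type} [Fintype ι] [DecidableEq ι] {Q : QuadraticForm F (ι → F)}
    (hG : Good Q) {r : ℕ} (C : Submodule F (ι → F) → Prop) {T : (ι → F) ≃ₗ[F] (ι → F)} (hT : T ∈ E Q)
    (hTr : T ^ r = 1) (hns : ∀ z : F, ¬ ∀ v, T v = z • v)
    (hno : ∀ W, C W → (∀ v ∈ W, T v ∈ W) → False) :
    ¬ (∀ x : GL ι F, x ∈ Cfsg.Geo.omegaGL ⇑Q →
      (∃ z : F, ((x ^ r : GL ι F) : Matrix ι ι F) = z • (1 : Matrix ι ι F)) →
      (∀ z : F, (x : Matrix ι ι F) ≠ z • (1 : Matrix ι ι F)) →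
      ∃ W : Submodule F (ι → F), C W ∧ W.map (Matrix.toLin' (x : Matrix ι ι F)) ≤ W) := by
  intro h
  set x := (glEquiv ι F).symm T with hx
  have hxT : glEquiv ι F x = T := MulEquiv.apply_symm_apply _ _
  obtain ⟨W, hCW, hW⟩ := h x ((mem_omegaGL_iff hG x).2 (by rw [hxT]; exact hT)) ⟨1, by
    rw [scalar_iff]
    intro v
    rw [map_pow, hxT, hTr, one_smul]; rfl⟩ (by
    intro z hz
    rw [scalar_iff, hxT] at hz
    exact hns z hz)
  exact hno W hCW (by rw [map_le_iff, hxT] at hW; exact hW)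

variable {V : Type v} [AddCommGroup V] [Module F V] [FiniteDimensional F V] {Q : QuadraticForm F V}

omit [FiniteDimensional F V] in
/-- totally singular subspaces -/
theorem exists_tsing_le {U : Submodule F V} (hU : ∀ u ∈ U, Q u = 0) {k : ℕ} (hk : k ≤ finrank F U)
    [FiniteDimensional F V] : ∃ U' : Submodule F V, (∀ u ∈ U', Q u = 0) ∧ finrank F U' = k := by
  let b := Module.finBasis F U
  have hli : LinearIndependent F (fun i : Fin k => b (Fin.castLE hk i)) :=
    b.linearIndependent.comp _ (Fin.castLE_injective hk)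
  refine ⟨(Submodule.span F (Set.range fun i : Fin k => b (Fin.castLE hk i))).map U.subtype, ?_, ?_⟩
  · rintro _ ⟨u, -, rfl⟩
    exact hU u u.2
  · rw [Submodule.finrank_map_subtype_eq, finrank_span_eq_card hli, Fintype.card_fin]

/-- totally singular subspaces of dimension `d - 1` -/
theorem exists_tsing [Finite F] (hQ : Nondeg Q) {d k : ℕ} (hd : finrank F V = 2 * d) (hk0 : 0 < k)
    (hk : k < d) : ∃ U : Submodule F V, (∀ u ∈ U, Q u = 0) ∧ finrank F U = k := by
  obtain ⟨X, hX, hXd, hXp⟩ := exists_subspace hQ (by rw [hd]; exact even_two_mul d) k hk0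
    (by rw [hd]; omega) True
  obtain ⟨U, hU, hUd⟩ := hXp.2 trivial
  refine ⟨U.map X.subtype, ?_, ?_⟩
  · rintro _ ⟨u, hu, rfl⟩
    exact hU u hu
  · rw [Submodule.finrank_map_subtype_eq]
    omega

end Cfsg.Agent.H958
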